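import Cfsg.Agent.Lib.Chevalley.Weyl
import Cfsg.Agent.Lib.Chevalley.ExtraData
import Cfsg.Agent.Lib.Chevalley.CommAll

/-!
Two generators of the seven tabulated Chevalley groups over a finite field: the torus element and a
root element times a Coxeter word, checked by finite certificates on the tables.
-/

set_option autoImplicit false
set_option linter.unusedSectionVars false

namespace CfsgLib.KnownSimple.TwoGen

open Cfsg.Lie CfsgLib.Chevalley

/-- A step enlarging the set of roots whose root subgroups are contained in a subgroup. -/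
inductive Step
  /-- conjugation by the Coxeter word -/
  | conj (r : ℕ)
  /-- the head of a commutator -/
  | comm (r s : ℕ)

variable (D : ChevalleyDatum)

/-- The Coxeter word. -/
def coxWord : List (Fin D.rank) := List.finRange D.rank

/-- Its action on roots. -/
def coxAct (r : ℕ) : ℕ := (coxWord D).foldr (fun (i : Fin D.rank) x => D.reflectRoot i.val x) r

/-- The coefficient may be inverted. -/
def coefB (p : ℕ) (k : ℤ) : Bool := k.natAbs == 1 || (p != 0 && k.natAbs == p)

/-- The pairing of a cocharacter with a root. -/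
def pairing (v : List ℤ) (s : ℕ) : ℤ := ∑ i : Fin D.rank, v.getD i.val 0 * D.cartan i s

/-- The new root of a step, if it is a valid one. -/
def stepOut (p : ℕ) : Step → List ℕ → Option ℕ
  | .conj r, S => if r < D.nroots ∧ S.contains r then some (coxAct D r) else none
  | .comm r s, S =>
    match D.commTerms r s with
    | (k, c, i, j) :: rest =>
      if r < D.nroots ∧ s < D.nroots ∧ S.contains r ∧ S.contains s ∧ s ≠ r ∧ s ≠ D.neg r ∧ i = 1 ∧
          j = 1 ∧ coefB p c ∧ rest.all (fun x => S.contains x.1) then some k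
      else none
    | [] => none

/-- Running a list of steps. -/
def runSteps (p : ℕ) : List Step → List ℕ → List ℕ
  | [], S => S
  | st :: l, S =>
    match stepOut D p st S with
    | some k => runSteps p l (k :: S)
    | none => runSteps p l S

/-- All fundamental roots and their negatives are reached. -/
def coverB (p : ℕ) (l : List Step) (S : List ℕ) : Bool :=
  (List.range D.rank).all fun i =>
    (runSteps D p l S).contains (D.simple i) && (runSteps D p l S).contains (D.neg (D.simple i))

variable {D} {A : Aux} {F : Type*} [Field F]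

theorem xG_mem_group (hC : Cert D A) (r : ℕ) (t : F) : xG hC r t ∈ D.group F := by
  by_cases hr : r < D.nroots
  · refine Subgroup.subset_closure ⟨⟨r, hr⟩, t, ?_⟩
    show D.x F r t = _
    rw [ChevalleyDatum.x, dif_pos hr]
  · rw [show xG hC r t = 1 from Units.ext (by
      show D.x F r t = 1
      rw [ChevalleyDatum.x, dif_neg hr])]
    exact Subgroup.one_mem _

theorem nG_mem_group (hC : Cert D A) (r : ℕ) (c : F) : nG hC r c ∈ D.group F :=
  Subgroup.mul_mem _ (Subgroup.mul_mem _ (xG_mem_group hC _ _) (xG_mem_group hC _ _))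
    (xG_mem_group hC _ _)

theorem torus_mem_group (h : Full D A) (c : Fin D.rank → Fˣ) : torusHom D F c ∈ D.group F := by
  have hle : D.diagonalSubgroup F ≤ D.group F := by
    rw [ChevalleyDatum.diagonalSubgroup, Subgroup.closure_le]
    rintro g ⟨r, t, -, -, hg⟩
    rw [show g = hG h.cert r t from Units.ext (hg.trans (coe_hG h.cert r t).symm)]
    exact Subgroup.mul_mem _ (nG_mem_group _ _ _) (nG_mem_group _ _ _)
  exact hle (torus_mem_diagonal h c)

theorem nW_mem_group (hC : Cert D A) (l : List (Fin D.rank)) : nW hC F l ∈ D.group F := by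
  induction l with
  | nil => exact Subgroup.one_mem _
  | cons i l ih => rw [nW_cons]; exact Subgroup.mul_mem _ (nG_mem_group _ _ _) ih

theorem coe_wPerm (hC : Cert D A) (l : List (Fin D.rank)) (s : Fin D.nroots) :
    ((wPerm hC l s : Fin D.nroots) : ℕ) = l.foldr (fun (i : Fin D.rank) x => D.reflectRoot i.val x) (s : ℕ) := by
  induction l with
  | nil => rfl
  | cons i l ih =>
    rw [wPerm_cons, Equiv.Perm.mul_apply, rfPerm_apply, List.foldr_cons, ← ih]
    rfl

theorem coe_cox (hC : Cert D A) (s : Fin D.nroots) :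
    ((wPerm hC (coxWord D) s : Fin D.nroots) : ℕ) = coxAct D s :=
  coe_wPerm hC _ s

section Elements

variable (h : Full D A)
include h

theorem torus_conj (c : Fin D.rank → Fˣ) {r : ℕ} (hr : r < D.nroots) (u : F) :
    torusHom D F c * xG h.cert r u * (torusHom D F c)⁻¹ = xG h.cert r ((chi D r c : F) * u) :=
  (acts_torus h.cert c).conj ⟨r, hr⟩ u

theorem commute_xG {r s : ℕ} (hr : r < D.nroots) (hs : s < D.nroots) (hsr : s ≠ r) (hneg : s ≠ D.neg r)
    (he : D.commTerms r s = []) (t u : F) : xG h.cert s u * xG h.cert r t = xG h.cert r t * xG h.cert s u := by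
  have e := x_mul_x h.mem hr hs hsr hneg t u
  refine Units.ext ?_
  rw [Units.val_mul, Units.val_mul]
  simpa [ChevalleyDatum.commWord, he, ChevalleyDatum.wordMat] using e

theorem comm_exact {r s : ℕ} (hr : r < D.nroots) (hs : s < D.nroots) (hsr : s ≠ r) (hneg : s ≠ D.neg r)
    (t u : F) : xG h.cert r t * xG h.cert s u * (xG h.cert r t)⁻¹ = xG h.cert s u *
      ((D.commTerms r s).map fun c =>
        xG h.cert c.1 ((c.2.1 : F) * t ^ c.2.2.1 * u ^ c.2.2.2)).prod := by
  have e := x_mul_x h.mem hr hs hsr hneg (-t) u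
  rw [wordMat_eq_prod h.cert] at e
  simp only [ChevalleyDatum.commWord, List.map_map, neg_neg, Function.comp_def] at e
  have e' : xG h.cert s u * xG h.cert r (-t) = xG h.cert r (-t) * xG h.cert s u *
      ((D.commTerms r s).map fun c =>
        xG h.cert c.1 ((c.2.1 : F) * t ^ c.2.2.1 * u ^ c.2.2.2)).prod :=
    Units.ext (by simpa using e)
  rw [← xG_inv] at e'
  rw [mul_assoc, e', ← mul_assoc, ← mul_assoc, mul_inv_cancel, one_mul]

theorem coef_ne {p : ℕ} (hp : p = 0 ∨ (p : F) ≠ 0) {k : ℤ} (hk : coefB p k = true) : (k : F) ≠ 0 := by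
  simp only [coefB, Bool.or_eq_true, beq_iff_eq, Bool.and_eq_true, bne_iff_ne, ne_eq] at hk
  rcases hk with e | ⟨hp0, e⟩
  · rcases Int.natAbs_eq k with e' | e' <;> rw [e', e] <;> simp
  · have hpF := hp.resolve_left hp0
    rcases Int.natAbs_eq k with e' | e' <;> rw [e', e] <;> simpa using hpF

/-- The head of a commutator lies in a subgroup containing the other terms. -/
theorem head_mem (M : Subgroup (GL D.Idx F)) {r s : ℕ} (hr : r < D.nroots) (hs : s < D.nroots)
    (hsr : s ≠ r) (hneg : s ≠ D.neg r) {k : ℕ} {c : ℤ} {rest : List (ℕ × ℤ × ℕ × ℕ)}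
    (he : D.commTerms r s = (k, c, 1, 1) :: rest) (hrest : ∀ x ∈ rest, ∀ v : F, xG h.cert x.1 v ∈ M)
    (t u : F) (hconj : xG h.cert r t * xG h.cert s u * (xG h.cert r t)⁻¹ ∈ M) (hu : xG h.cert s u ∈ M) :
    xG h.cert k ((c : F) * t * u) ∈ M := by
  rw [comm_exact h hr hs hsr hneg t u, he, List.map_cons, List.prod_cons, pow_one, pow_one,
    M.mul_mem_cancel_left hu] at hconj
  exact (M.mul_mem_cancel_right (M.list_prod_mem fun x hx => by
    obtain ⟨y, hy, rfl⟩ := List.mem_map.1 hx
    exact hrest y hy _)).1 hconj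

/-- Soundness of a list of steps. -/
theorem runSteps_mem {p : ℕ} (hp : p = 0 ∨ (p : F) ≠ 0) (M : Subgroup (GL D.Idx F))
    (hn : nW h.cert F (coxWord D) ∈ M) : ∀ (l : List Step) (S : List ℕ),
      (∀ r ∈ S, ∀ u : F, xG h.cert r u ∈ M) → ∀ r ∈ runSteps D p l S, ∀ u : F, xG h.cert r u ∈ M := by
  intro l
  induction l with
  | nil => exact fun S hS => hS
  | cons st l ih =>
    intro S hS
    rw [runSteps]
    split
    swap
    · exact ih S hS
    next k hk =>
    refine ih (k :: S) ?_
    intro x hx
    rcases List.mem_cons.1 hx with rfl | hx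
    swap
    · exact hS x hx
    cases st with
    | conj r =>
      simp only [stepOut, List.contains_iff_mem, Option.ite_none_right_eq_some, Option.some.injEq] at hk
      obtain ⟨⟨hr, hmem⟩, rfl⟩ := hk
      obtain ⟨η, hη⟩ := acts_nW (F := F) h (coxWord D)
      intro u
      have e := hη.conj ⟨r, hr⟩ ((η ⟨r, hr⟩)⁻¹ * u)
      rw [mul_inv_cancel_left₀ (hη.ne_zero _), coe_cox] at e
      rw [← e]
      exact M.mul_mem (M.mul_mem hn (hS r hmem _)) (M.inv_mem hn)
    | comm r s =>
      simp only [stepOut] at hk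
      split at hk
      swap
      · exact absurd hk (by simp)
      next k' c i j rest he =>
      simp only [List.contains_iff_mem, List.all_eq_true, Option.ite_none_right_eq_some,
        Option.some.injEq] at hk
      obtain ⟨⟨hr, hs, hrm, hsm, hsr, hneg, rfl, rfl, hc, hrest⟩, rfl⟩ := hk
      intro u
      have hm := head_mem h M hr hs hsr hneg he (fun y hy => hS _ (hrest y hy)) (u / (c : F)) 1
        (M.mul_mem (M.mul_mem (hS r hrm _) (hS s hsm _)) (M.inv_mem (hS r hrm _))) (hS s hsm _)
      rwa [mul_one, mul_div_cancel₀ _ (coef_ne h hp hc)] at hm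

/-- Enough root subgroups give the whole group. -/
theorem group_le_of_simples (M : Subgroup (GL D.Idx F))
    (hs : ∀ (i : Fin D.rank) (u : F),
      xG h.cert (D.simple i) u ∈ M ∧ xG h.cert (D.neg (D.simple i)) u ∈ M) :
    D.group F ≤ M := by
  have hn : ∀ i : Fin D.rank, nG h.cert (D.simple i) (1 : F) ∈ M := fun i =>
    M.mul_mem (M.mul_mem (hs i _).1 (hs i _).2) (hs i _).1
  have hall : ∀ r : Fin D.nroots, ∀ u : F, xG h.cert r u ∈ M := by
    refine h.root_induction (fun i u => (hs i u).1) fun i s hS u => ?_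
    have ha := acts_nG_simple (F := F) h i one_ne_zero
    set η := fun t : Fin D.nroots => (etaAt A i t : F) * (1 : F) ^ (-D.cartan i t)
    have e := ha.conj s ((η s)⁻¹ * u)
    rw [mul_inv_cancel_left₀ (ha.ne_zero s), rfPerm_apply] at e
    rw [← e]
    exact M.mul_mem (M.mul_mem (hn i) (hS _)) (M.inv_mem (hn i))
  rw [ChevalleyDatum.group, Subgroup.closure_le]
  rintro g ⟨r, t, hg⟩
  rw [(eq_xG_iff h.cert).1 (hg.trans (by rw [ChevalleyDatum.x, dif_pos r.isLt] : D.xMat F r t = D.x F r t))]
  exact hall r t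

/-- A cover certificate makes the subgroup everything. -/
theorem group_le_of_cover {p : ℕ} (hp : p = 0 ∨ (p : F) ≠ 0) (M : Subgroup (GL D.Idx F))
    (hn : nW h.cert F (coxWord D) ∈ M) {l : List Step} {S : List ℕ} (hl : coverB D p l S = true)
    (hS : ∀ r ∈ S, ∀ u : F, xG h.cert r u ∈ M) : D.group F ≤ M := by
  rw [coverB, List.all_eq_true] at hl
  refine group_le_of_simples h M fun i u => ?_
  have hi := hl i (List.mem_range.2 i.isLt)
  rw [Bool.and_eq_true, List.contains_iff_mem, List.contains_iff_mem] at hi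
  exact ⟨runSteps_mem h hp M hn l S hS _ hi.1 u, runSteps_mem h hp M hn l S hS _ hi.2 u⟩

/-- From two matrices to two elements of the group. -/
theorem exists_gens {a b : GL D.Idx F} (ha : a ∈ D.group F) (hb : b ∈ D.group F)
    (hle : D.group F ≤ Subgroup.closure {a, b}) :
    ∃ a b : ↥(D.group F), Subgroup.closure ({a, b} : Set ↥(D.group F)) = ⊤ := by
  refine ⟨⟨a, ha⟩, ⟨b, hb⟩, eq_top_iff.2 fun x _ => ?_⟩
  have hx : (D.group F).subtype x ∈
      (Subgroup.closure ({⟨a, ha⟩, ⟨b, hb⟩} : Set ↥(D.group F))).map (D.group F).subtype := by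
    rw [MonoidHom.map_closure, Set.image_pair]
    exact hle x.2
  exact (Subgroup.mem_map_iff_mem (D.group F).subtype_injective).1 hx

end Elements

end CfsgLib.KnownSimple.TwoGen
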