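import Cfsg.Agent.Lib.KnownSimple.TwoGen.Core

/-!
The generation statements for one or two starting root subgroups, and for the field with two elements.
-/

set_option autoImplicit false
set_option linter.unusedSectionVars false

namespace CfsgLib.KnownSimple.TwoGen

open Cfsg.Lie CfsgLib.Chevalley

variable {D : ChevalleyDatum} {A : Aux} {F : Type*} [Field F]

section Field

/-- A generator of the unit group, as an exponent base. -/
def IsPrim (z : Fˣ) : Prop := ∀ u : Fˣ, ∃ j : ℤ, z ^ j = u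

theorem exists_prim [Finite F] : ∃ z : Fˣ, IsPrim z := by
  obtain ⟨z, hz⟩ := IsCyclic.exists_generator (α := Fˣ)
  exact ⟨z, fun u => Subgroup.mem_zpowers_iff.1 (hz u)⟩

theorem IsPrim.zpow {z : Fˣ} (hz : IsPrim z) [Finite F] {p : ℕ} (hp : p.Prime) (hpF : (p : F) = 0) {d : ℤ}
    (hd : d.natAbs = 1 ∨ d.natAbs = p) : IsPrim (z ^ d) := by
  haveI := Fact.mk hp
  haveI : CharP F p := (CharP.charP_iff_prime_eq_zero hp).2 hpF
  intro u
  have key : ∃ j : ℤ, z ^ (j * (d.natAbs : ℤ)) = u := by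
    rcases hd with e | e
    · obtain ⟨j, hj⟩ := hz u
      exact ⟨j, by simpa [e] using hj⟩
    · obtain ⟨v, hv⟩ := (bijective_frobenius F p).2 (u : F)
      have hv0 : v ≠ 0 := by
        rintro rfl
        exact u.ne_zero (by rw [← hv, map_zero])
      obtain ⟨j, hj⟩ := hz (Units.mk0 v hv0)
      refine ⟨j, ?_⟩
      rw [e, zpow_mul, hj, zpow_natCast]
      exact Units.ext (by rw [Units.val_pow_eq_pow_val, Units.val_mk0, ← frobenius_def, hv])
  obtain ⟨j, hj⟩ := key
  rcases Int.natAbs_eq d with e | e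
  · exact ⟨j, by rw [← zpow_mul, e, mul_comm, hj]⟩
  · refine ⟨-j, ?_⟩
    rw [← zpow_mul, e, show (-(d.natAbs : ℤ)) * -j = j * (d.natAbs : ℤ) by ring, hj]

theorem IsPrim.zpow_one {z : Fˣ} (hz : IsPrim z) {d : ℤ} (hd : d.natAbs = 1) : IsPrim (z ^ d) := by
  intro u
  obtain ⟨j, hj⟩ := hz u
  rcases Int.natAbs_eq d with e | e <;> rw [hd] at e
  · exact ⟨j, by simpa [e] using hj⟩
  · exact ⟨-j, by simpa [e] using hj⟩

theorem IsPrim.ne_one {z : Fˣ} (hz : IsPrim z) (h3 : ∃ x : F, x ≠ 0 ∧ x ≠ 1) : z ≠ 1 := by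
  obtain ⟨x, hx0, hx1⟩ := h3
  rintro rfl
  obtain ⟨j, hj⟩ := hz (Units.mk0 x hx0)
  rw [one_zpow] at hj
  exact hx1 (congrArg Units.val hj).symm

end Field

/-- The cocharacter with the given exponents. -/
noncomputable def cochar (z : Fˣ) (v : List ℤ) : Fin D.rank → Fˣ := fun i => z ^ v.getD i.val 0

theorem chi_cochar (z : Fˣ) (v : List ℤ) (s : ℕ) : chi D s (cochar z v) = z ^ pairing D v s := by
  show ∏ k : Fin D.rank, (z ^ v.getD k.val 0) ^ D.cartan k s = _
  have hsum : ∀ (S : Finset (Fin D.rank)) (f : Fin D.rank → ℤ), ∏ k ∈ S, z ^ f k = z ^ ∑ k ∈ S, f k := by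
    intro S f
    classical
    induction S using Finset.induction with
    | empty => simp
    | insert a S ha ih => rw [Finset.prod_insert ha, Finset.sum_insert ha, zpow_add, ih]
  simp only [← zpow_mul]
  exact hsum _ _

variable (h : Full D A) [Finite F]
include h

/-- One nontrivial root element and a torus element with primitive character give a root subgroup. -/
theorem full_of_prim {M : Subgroup (GL D.Idx F)} {r : ℕ} (hr : r < D.nroots) {u : F} (hu : u ≠ 0)
    (hx : xG h.cert r u ∈ M) {g : GL D.Idx F} (hg : g ∈ M) {l : Fˣ} (hl : IsPrim l)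
    (hconj : ∀ w : F, g * xG h.cert r w * g⁻¹ = xG h.cert r ((l : F) * w)) :
    ∀ w : F, xG h.cert r w ∈ M := by
  have key : ∀ (j : ℤ) (w : F), g ^ j * xG h.cert r w * (g ^ j)⁻¹ = xG h.cert r (((l ^ j : Fˣ) : F) * w) := by
    intro j
    induction j using Int.induction_on with
    | zero => intro w; simp
    | succ j ih =>
      intro w
      rw [zpow_add_one, show g ^ (j : ℤ) * g * xG h.cert r w * (g ^ (j : ℤ) * g)⁻¹ =
        g ^ (j : ℤ) * (g * xG h.cert r w * g⁻¹) * (g ^ (j : ℤ))⁻¹ by group, hconj, ih,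
        zpow_add_one, Units.val_mul, mul_assoc]
    | pred j ih =>
      intro w
      have e : g⁻¹ * xG h.cert r w * g = xG h.cert r (((l⁻¹ : Fˣ) : F) * w) := by
        have e' := hconj (((l⁻¹ : Fˣ) : F) * w)
        rw [Units.mul_inv_cancel_left] at e'
        rw [← e']
        group
      rw [zpow_sub_one, show g ^ (-(j : ℤ)) * g⁻¹ * xG h.cert r w * (g ^ (-(j : ℤ)) * g⁻¹)⁻¹ =
        g ^ (-(j : ℤ)) * (g⁻¹ * xG h.cert r w * g) * (g ^ (-(j : ℤ)))⁻¹ by group, e, ih,
        zpow_sub_one, Units.val_mul, mul_assoc]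
  intro w
  rcases eq_or_ne w 0 with rfl | hw
  · rw [xG_zero]; exact M.one_mem
  obtain ⟨j, hj⟩ := hl (Units.mk0 (w / u) (div_ne_zero hw hu))
  have e := key j u
  rw [hj, Units.val_mk0, div_mul_cancel₀ _ hu] at e
  rw [← e]
  exact M.mul_mem (M.mul_mem (M.zpow_mem hg j) hx) (M.inv_mem (M.zpow_mem hg j))

/-- The torus element and the root element times the Coxeter word give a root subgroup and the word. -/
theorem core_mem {z : Fˣ} (hz : IsPrim z) (h3 : ∃ x : F, x ≠ 0 ∧ x ≠ 1) {v : List ℤ} {s s' : ℕ}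
    (hs : s < D.nroots) (hs' : s' < D.nroots) (hcox : coxAct D s' = s)
    (hd : (pairing D v s).natAbs = 1) (hd' : (pairing D v s').natAbs = 1) {M : Subgroup (GL D.Idx F)}
    (ht : torusHom D F (cochar z v) ∈ M) (hb : xG h.cert s 1 * nW h.cert F (coxWord D) ∈ M) :
    nW h.cert F (coxWord D) ∈ M ∧ ∀ u : F, xG h.cert s u ∈ M := by
  set c : Fin D.rank → Fˣ := cochar z v with hc
  set t := torusHom D F c
  set N := nW h.cert F (coxWord D)
  obtain ⟨η, hη⟩ := acts_nW (F := F) h (coxWord D)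
  obtain ⟨c', hc'⟩ := nW_conj_torus (F := F) h (coxWord D) c
  set l : Fˣ := chi D s c with hl
  set m : Fˣ := chi D s' c with hm
  have hlp : IsPrim l := by rw [hl, hc, chi_cochar]; exact hz.zpow_one hd
  have hmp : IsPrim m := by rw [hm, hc, chi_cochar]; exact hz.zpow_one hd'
  have hσ : ((wPerm h.cert (coxWord D) ⟨s', hs'⟩ : Fin D.nroots) : ℕ) = s := by rw [coe_cox, hcox]
  -- the conjugate torus element
  have hconj : ∀ u : F, torusHom D F c' * xG h.cert s u * (torusHom D F c')⁻¹ = xG h.cert s ((m : F) * u) := by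
    intro u
    have e1 := hη.conj ⟨s', hs'⟩ ((η ⟨s', hs'⟩)⁻¹ * u)
    rw [mul_inv_cancel_left₀ (hη.ne_zero _), hσ] at e1
    have e2 := hη.conj ⟨s', hs'⟩ ((m : F) * ((η ⟨s', hs'⟩)⁻¹ * u))
    rw [show η ⟨s', hs'⟩ * ((m : F) * ((η ⟨s', hs'⟩)⁻¹ * u)) = (m : F) * u by
      field_simp [hη.ne_zero ⟨s', hs'⟩], hσ] at e2
    rw [← hc', ← e1, ← e2, ← torus_conj h c hs']
    group
  set x := xG h.cert s (1 : F)
  set t' := torusHom D F c'
  have hy : x * t' * x⁻¹ ∈ M := by
    have : x * t' * x⁻¹ = x * N * t * (x * N)⁻¹ := by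
      show x * t' * x⁻¹ = x * N * t * (x * N)⁻¹
      rw [show t' = N * t * N⁻¹ from hc'.symm]
      group
    rw [this]
    exact M.mul_mem (M.mul_mem hb ht) (M.inv_mem hb)
  have hcomm : t * t' = t' * t := by rw [← map_mul, ← map_mul, mul_comm]
  have hxm : x * t' * x⁻¹ = xG h.cert s (1 - (m : F)) * t' := by
    have e := hconj (-1)
    calc x * t' * x⁻¹ = x * (t' * xG h.cert s (-1) * t'⁻¹) * t' := by rw [← xG_inv]; simp only [x]; group
      _ = xG h.cert s (1 - (m : F)) * t' := by rw [e, xG_mul, mul_neg_one, ← sub_eq_add_neg]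
  rw [hxm] at hy
  have hz' : xG h.cert s (((l : F) - 1) * (1 - (m : F))) ∈ M := by
    have e : t * (xG h.cert s (1 - (m : F)) * t') * t⁻¹ * (xG h.cert s (1 - (m : F)) * t')⁻¹ =
        xG h.cert s (((l : F) - 1) * (1 - (m : F))) := by
      calc _ = t * xG h.cert s (1 - (m : F)) * t⁻¹ * (t * t' * t⁻¹ * t'⁻¹) *
            (xG h.cert s (1 - (m : F)))⁻¹ := by group
        _ = xG h.cert s ((l : F) * (1 - (m : F))) * xG h.cert s (-(1 - (m : F))) := by
          rw [hcomm, mul_inv_cancel_right, mul_inv_cancel, mul_one, xG_inv, torus_conj h c hs]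
        _ = _ := by rw [xG_mul]; congr 1; ring
    rw [← e]
    exact M.mul_mem (M.mul_mem (M.mul_mem ht hy) (M.inv_mem ht)) (M.inv_mem hy)
  have hne : ((l : F) - 1) * (1 - (m : F)) ≠ 0 :=
    mul_ne_zero (sub_ne_zero.2 fun e => hlp.ne_one h3 (Units.ext e))
      (sub_ne_zero.2 fun e => hmp.ne_one h3 (Units.ext e.symm))
  have hfull := full_of_prim h hs hne hz' ht hlp (fun w => torus_conj h c hs w)
  exact ⟨(M.mul_mem_cancel_left (hfull 1)).1 hb, hfull⟩

/-- One starting root. -/
theorem exists_gens_single (h3 : ∃ x : F, x ≠ 0 ∧ x ≠ 1) {p : ℕ} (hp : p = 0 ∨ (p : F) ≠ 0) {v : List ℤ}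
    {s s' : ℕ} (hs : s < D.nroots) (hs' : s' < D.nroots) (hcox : coxAct D s' = s)
    (hd : (pairing D v s).natAbs = 1) (hd' : (pairing D v s').natAbs = 1) {l : List Step}
    (hl : coverB D p l [s] = true) :
    ∃ a b : ↥(D.group F), Subgroup.closure ({a, b} : Set ↥(D.group F)) = ⊤ := by
  obtain ⟨z, hz⟩ := exists_prim (F := F)
  refine exists_gens h (torus_mem_group h (cochar z v))
    (Subgroup.mul_mem _ (xG_mem_group h.cert s (1 : F)) (nW_mem_group h.cert (coxWord D))) ?_
  obtain ⟨hn, hfull⟩ := core_mem h hz h3 hs hs' hcox hd hd'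
    (M := Subgroup.closure {torusHom D F (cochar z v), xG h.cert s 1 * nW h.cert F (coxWord D)})
    (Subgroup.subset_closure (Or.inl rfl)) (Subgroup.subset_closure (Or.inr rfl))
  refine group_le_of_cover h hp _ hn hl fun r hr => ?_
  rw [List.mem_singleton.1 hr]
  exact hfull

/-- Two starting roots. -/
theorem exists_gens_pair (h3 : ∃ x : F, x ≠ 0 ∧ x ≠ 1) {v : List ℤ}
    {s s' r : ℕ} (hs : s < D.nroots) (hs' : s' < D.nroots) (hcox : coxAct D s' = s) (hr : r < D.nroots)
    (hd : (pairing D v s).natAbs = 1) (hd' : (pairing D v s').natAbs = 1) (hr0 : pairing D v r = 0)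
    (hk : (pairing D v (coxAct D r)).natAbs = 1 ∨
      ∃ p : ℕ, p.Prime ∧ (p : F) = 0 ∧ (pairing D v (coxAct D r)).natAbs = p) {l : List Step}
    (hl : coverB D 0 l [s, r] = true) :
    ∃ a b : ↥(D.group F), Subgroup.closure ({a, b} : Set ↥(D.group F)) = ⊤ := by
  obtain ⟨z, hz⟩ := exists_prim (F := F)
  have := Fintype.ofFinite F
  set c : Fin D.rank → Fˣ := cochar z v with hc
  set t := torusHom D F c with htdef
  set N := nW h.cert F (coxWord D)
  refine exists_gens h (Subgroup.mul_mem _ (torus_mem_group h c) (xG_mem_group h.cert r (1 : F)))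
    (Subgroup.mul_mem _ (xG_mem_group h.cert s (1 : F)) (nW_mem_group h.cert (coxWord D))) ?_
  set M := Subgroup.closure {t * xG h.cert r (1 : F), xG h.cert s 1 * N}
  have ha : t * xG h.cert r (1 : F) ∈ M := Subgroup.subset_closure (Or.inl rfl)
  have htr : Commute t (xG h.cert r (1 : F)) := by
    have e := torus_conj h c hr (1 : F)
    rw [hc, chi_cochar, hr0, zpow_zero, Units.val_one, one_mul] at e
    exact mul_inv_eq_iff_eq_mul.1 e
  have hxpow : ∀ k : ℕ, (xG h.cert r (1 : F)) ^ k = xG h.cert r (k : F) := fun k => by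
    induction k with
    | zero => rw [pow_zero, Nat.cast_zero, xG_zero]
    | succ k ih => rw [pow_succ, ih, xG_mul, Nat.cast_succ]
  have hxm : xG h.cert r (-1 : F) ∈ M := by
    have e : (t * xG h.cert r (1 : F)) ^ (Fintype.card F - 1) = xG h.cert r (-1 : F) := by
      have hc1 : c ^ (Fintype.card F - 1) = 1 := funext fun i => Units.ext (by
        rw [Pi.pow_apply, Units.val_pow_eq_pow_val, FiniteField.pow_card_sub_one_eq_one _ (c i).ne_zero]
        rfl)
      rw [htr.mul_pow, htdef, ← map_pow, hc1, map_one, one_mul, hxpow,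
        Nat.cast_sub Fintype.card_pos, FiniteField.cast_card_eq_zero, zero_sub, Nat.cast_one]
    rw [← e]
    exact M.pow_mem ha _
  have ht : t ∈ M := by
    have e : t * xG h.cert r (1 : F) * xG h.cert r (-1) = t := by
      rw [mul_assoc, xG_mul, add_neg_cancel, xG_zero, mul_one]
    rw [← e]
    exact M.mul_mem ha hxm
  obtain ⟨hn, hfull⟩ := core_mem h hz h3 hs hs' hcox hd hd' (M := M) ht
    (Subgroup.subset_closure (Or.inr rfl))
  obtain ⟨η, hη⟩ := acts_nW (F := F) h (coxWord D)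
  have hk' : coxAct D r < D.nroots := coe_cox h.cert ⟨r, hr⟩ ▸ (wPerm h.cert (coxWord D) ⟨r, hr⟩).isLt
  have hprim : IsPrim (chi D (coxAct D r) c) := by
    rw [hc, chi_cochar]
    rcases hk with e | ⟨p, hp, hpF, e⟩
    · exact hz.zpow_one e
    · exact hz.zpow hp hpF (Or.inr e)
  have hrfull : ∀ u : F, xG h.cert r u ∈ M := by
    refine full_of_prim h hr (neg_ne_zero.2 one_ne_zero) hxm (g := N⁻¹ * t * N)
      (M.mul_mem (M.mul_mem (M.inv_mem hn) ht) hn) hprim fun w => ?_
    have e1 := hη.conj ⟨r, hr⟩ w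
    have e2 := hη.conj ⟨r, hr⟩ ((chi D (coxAct D r) c : F) * w)
    rw [coe_cox] at e1 e2
    rw [mul_left_comm, ← torus_conj h c hk', ← e1] at e2
    refine (MulAut.conj N).injective ?_
    show N * _ * N⁻¹ = N * _ * N⁻¹
    rw [e2]
    simp only [N, t]
    group
  refine group_le_of_cover h (Or.inl rfl) M hn hl fun x hx => ?_
  simp only [List.mem_cons, List.not_mem_nil, or_false] at hx
  rcases hx with rfl | rfl
  exacts [hfull, hrfull]

theorem mem_two {M : Subgroup (GL D.Idx F)} (h2 : ∀ u : F, u = 0 ∨ u = 1) {r : ℕ}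
    (hx : xG h.cert r (1 : F) ∈ M) (u : F) : xG h.cert r u ∈ M := by
  rcases h2 u with rfl | rfl
  · rw [xG_zero]; exact M.one_mem
  · exact hx

/-- The field with two elements, one starting root. -/
theorem exists_gens_two (h2 : ∀ u : F, u = 0 ∨ u = 1) {s : ℕ}
    {l : List Step} (hl : coverB D 0 l [s] = true) :
    ∃ a b : ↥(D.group F), Subgroup.closure ({a, b} : Set ↥(D.group F)) = ⊤ := by
  refine exists_gens h (xG_mem_group h.cert s (1 : F)) (nW_mem_group h.cert (coxWord D)) ?_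
  refine group_le_of_cover h (Or.inl rfl) _ (Subgroup.subset_closure (Or.inr rfl)) hl fun r hr u => ?_
  rw [List.mem_singleton.1 hr]
  exact mem_two h h2 (Subgroup.subset_closure (Or.inl rfl)) u

/-- The field with two elements, two starting roots. -/
theorem exists_gens_two_pair (h2 : ∀ u : F, u = 0 ∨ u = 1) (i : Fin D.rank) {r cc k : ℕ} {kc : ℤ}
    {rest : List (ℕ × ℤ × ℕ × ℕ)} (hr : r < D.nroots) (hc : cc < D.nroots)
    (hri : r ≠ D.simple i ∧ r ≠ D.neg (D.simple i) ∧ r ≠ D.neg (D.neg (D.simple i)) ∧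
      D.commTerms (D.simple i) r = [] ∧ D.commTerms (D.neg (D.simple i)) r = [])
    (hci : cc ≠ D.simple i ∧ cc ≠ D.neg (D.simple i) ∧ cc ≠ D.neg (D.neg (D.simple i)) ∧
      D.commTerms (D.neg (D.simple i)) cc = [] ∧
      D.commTerms (D.simple i) cc = (k, kc, 1, 1) :: rest)
    (hkc : kc.natAbs = 1) {l₁ l : List Step} (hin : (runSteps D 0 l₁ [r]).contains cc = true)
    (hrest : (rest.all fun x => (runSteps D 0 l₁ [r]).contains x.1) = true)
    (hl : coverB D 0 l [r, k] = true) :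
    ∃ a b : ↥(D.group F), Subgroup.closure ({a, b} : Set ↥(D.group F)) = ⊤ := by
  set p := D.simple i
  set q := D.neg (D.simple i)
  have hp : p < D.nroots := h.cert.wf.simple_lt i i.isLt
  have hq : q < D.nroots := h.cert.wf.neg_lt p hp
  have h2F : (1 : F) + 1 = 0 := by
    rcases h2 (1 + 1) with e | e
    · exact e
    · exact absurd (add_left_cancel (e.trans (add_zero 1).symm)) one_ne_zero
  have hneg : (-1 : F) = 1 := by linear_combination -h2F
  have hne1 : ∀ u : F, u ≠ 0 → u = 1 := fun u hu => (h2 u).resolve_left hu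
  set X := xG h.cert p (1 : F)
  set Y := xG h.cert q (1 : F)
  set R := xG h.cert r (1 : F)
  have hXX : X * X = 1 := by rw [xG_mul, h2F, xG_zero]
  have hYY : Y * Y = 1 := by rw [xG_mul, h2F, xG_zero]
  have hRR : R * R = 1 := by rw [xG_mul, h2F, xG_zero]
  have hnG : nG h.cert p (1 : F) = X * Y * X := by
    show xG h.cert p 1 * xG h.cert (D.neg p) (-(1 : F)⁻¹) * xG h.cert p 1 = _
    rw [inv_one, hneg]
  have hbraid : Y * X * Y = X * Y * X := by
    have ha := acts_nG_simple (F := F) h i one_ne_zero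
    have e := ha.conj_nG (smp h.cert i) (1 : F)
    rw [rfPerm_apply, rf_smp, mul_one] at e
    change nG h.cert p (1 : F) * nG h.cert p 1 * (nG h.cert p 1)⁻¹ = _ at e
    rw [mul_inv_cancel_right] at e
    rw [hne1 _ (ha.ne_zero (smp h.cert i))] at e
    rw [← hnG, e]
    show _ = xG h.cert q 1 * xG h.cert (D.neg q) (-(1 : F)⁻¹) * xG h.cert q 1
    rw [inv_one, hneg, show D.neg q = p from congrArg Fin.val (ngR_ngR h.cert (smp h.cert i))]
  have hu3 : X * Y * (X * Y) * (X * Y) = 1 := by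
    calc X * Y * (X * Y) * (X * Y) = X * Y * X * (Y * X * Y) := by group
      _ = X * Y * (X * X) * Y * X := by rw [hbraid]; group
      _ = 1 := by rw [hXX, mul_one, mul_assoc X Y Y, hYY, mul_one, hXX]
  have hcomR : Commute R (X * Y) := by
    refine Commute.mul_right ?_ ?_
    · exact commute_xG h hp hr hri.1 hri.2.1 hri.2.2.2.1 1 1
    · exact commute_xG h hq hr hri.2.1 hri.2.2.1 hri.2.2.2.2 1 1
  refine exists_gens h (Subgroup.mul_mem _ (xG_mem_group h.cert r (1 : F))
    (Subgroup.mul_mem _ (xG_mem_group h.cert p (1 : F)) (xG_mem_group h.cert q (1 : F))))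
    (nW_mem_group h.cert (coxWord D)) ?_
  set M := Subgroup.closure {R * (X * Y), nW h.cert F (coxWord D)}
  have ha : R * (X * Y) ∈ M := Subgroup.subset_closure (Or.inl rfl)
  have hn : nW h.cert F (coxWord D) ∈ M := Subgroup.subset_closure (Or.inr rfl)
  have hR : R ∈ M := by
    have e : (R * (X * Y)) ^ 3 = R := by
      rw [hcomR.mul_pow, pow_three, pow_three, hRR, mul_one, ← mul_assoc (X * Y), hu3, mul_one]
    rw [← e]
    exact M.pow_mem ha 3
  have hu : X * Y ∈ M := (M.mul_mem_cancel_left hR).1 ha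
  have hS1 := runSteps_mem h (Or.inl rfl) M hn l₁ [r] (fun x hx => by
    rw [List.mem_singleton.1 hx]; exact mem_two h h2 hR)
  rw [List.contains_iff_mem] at hin
  rw [List.all_eq_true] at hrest
  simp only [List.contains_iff_mem] at hrest
  have hc1 := hS1 _ hin (1 : F)
  have hk : xG h.cert k ((kc : F) * 1 * 1) ∈ M := by
    refine head_mem h M hp hc hci.1 hci.2.1 hci.2.2.2.2 (fun x hx => hS1 _ (hrest x hx)) 1 1 ?_ hc1
    have e := commute_xG h hq hc hci.2.1 hci.2.2.1 hci.2.2.2.1 (1 : F) 1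
    have e' : X * Y * xG h.cert cc (1 : F) * (X * Y)⁻¹ = X * xG h.cert cc 1 * X⁻¹ := by
      rw [mul_assoc X Y, ← e]
      simp only [X, Y]
      group
    rw [← e']
    exact M.mul_mem (M.mul_mem hu hc1) (M.inv_mem hu)
  rw [mul_one, mul_one, hne1 _ (coef_ne h (Or.inl rfl) (show coefB 0 kc = true by simp [coefB, hkc]))] at hk
  refine group_le_of_cover h (Or.inl rfl) M hn hl fun x hx => ?_
  simp only [List.mem_cons, List.not_mem_nil, or_false] at hx
  rcases hx with rfl | rfl
  exacts [mem_two h h2 hR, mem_two h h2 hk]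

end CfsgLib.KnownSimple.TwoGen
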