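import Cfsg.Agent.Lib.KnownSimple.TwoGen.OrthoFrame

/-!
The monomial and torus elements used for two-generation of orthogonal groups, and the group-theoretic core.
-/

set_option autoImplicit false
set_option linter.unusedSimpArgs false

namespace CfsgLib.KnownSimple.TwoGen.Ortho

open QuadraticMap CfsgLib.ClassicalForms

/-! ### Groups with a scaled one-parameter subgroup -/

section Param

variable {F G : Type*} [Field F] [Group G] {X : F → G} {M : Subgroup G}

theorem param_zero (hX : ∀ c d, X c * X d = X (c + d)) : X 0 = 1 :=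
  mul_eq_left.1 ((hX 0 0).trans (congrArg X (add_zero 0)))

theorem param_inv (hX : ∀ c d, X c * X d = X (c + d)) (c : F) : (X c)⁻¹ = X (-c) :=
  inv_eq_of_mul_eq_one_right (by rw [hX, add_neg_cancel, param_zero hX])

theorem param_nat (hX : ∀ c d, X c * X d = X (c + d)) (c : F) : ∀ k : ℕ, X c ^ k = X (k * c)
  | 0 => by rw [pow_zero, Nat.cast_zero, zero_mul, param_zero hX]
  | k + 1 => by rw [pow_succ, param_nat hX c k, hX, Nat.cast_succ, add_mul, one_mul]

/-- One nontrivial element and a primitive scaling give the whole parameter group. -/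
theorem param_full (hX : ∀ c d, X c * X d = X (c + d)) {g : G} (hg : g ∈ M) {l : Fˣ}
    (hl : ∀ u : Fˣ, ∃ j : ℤ, l ^ j = u) (hconj : ∀ c, g * X c * g⁻¹ = X ((l : F) * c)) {u : F} (hu : u ≠ 0)
    (hx : X u ∈ M) (c : F) : X c ∈ M := by
  let H : Subgroup Fˣ :=
    { carrier := {k | ∀ w, X w ∈ M ↔ X ((k : F) * w) ∈ M}
      one_mem' := fun w => by simp
      mul_mem' := fun {a b} ha hb w => by rw [hb w, ha ((b : F) * w), Units.val_mul, mul_assoc]
      inv_mem' := fun {a} ha w => by rw [ha (((a⁻¹ : Fˣ) : F) * w), Units.mul_inv_cancel_left] }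
  have hlH : l ∈ H := fun w => by
    rw [← hconj]
    exact ⟨fun h => M.mul_mem (M.mul_mem hg h) (M.inv_mem hg),
      fun h => (M.mul_mem_cancel_left hg).1 ((M.mul_mem_cancel_right (M.inv_mem hg)).1 h)⟩
  rcases eq_or_ne c 0 with rfl | hc
  · rw [param_zero hX]; exact M.one_mem
  obtain ⟨j, hj⟩ := hl (Units.mk0 (c / u) (div_ne_zero hc hu))
  have h2 := (H.zpow_mem hlH j u).1 hx
  rwa [hj, Units.val_mk0, div_mul_cancel₀ _ hu] at h2

/-- The torus element and the root element times the monomial give a root group and the monomial. -/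
theorem param_core (hX : ∀ c d, X c * X d = X (c + d)) {t n : G} (ht : t ∈ M) (hb : X 1 * n ∈ M) {l m : Fˣ}
    (hl : ∀ u : Fˣ, ∃ j : ℤ, l ^ j = u) (hl1 : (l : F) ≠ 1) (hm1 : (m : F) ≠ 1)
    (hcomm : Commute t (n * t * n⁻¹)) (ht1 : ∀ c, t * X c * t⁻¹ = X ((l : F) * c))
    (ht2 : ∀ c, n * t * n⁻¹ * X c * (n * t * n⁻¹)⁻¹ = X ((m : F) * c)) :
    n ∈ M ∧ ∀ c, X c ∈ M := by
  set t' := n * t * n⁻¹
  have hy : X (1 - (m : F)) * t' ∈ M := by
    have e : X (1 - (m : F)) * t' = X 1 * n * t * (X 1 * n)⁻¹ := by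
      calc X (1 - (m : F)) * t' = X 1 * (t' * X (-1) * t'⁻¹) * t' := by
            rw [ht2, hX, mul_neg_one, ← sub_eq_add_neg]
        _ = X 1 * t' * X (-1) := by group
        _ = _ := by rw [← param_inv hX]; simp only [t']; group
    rw [e]
    exact M.mul_mem (M.mul_mem hb ht) (M.inv_mem hb)
  have hz : X (((l : F) - 1) * (1 - (m : F))) ∈ M := by
    have e : t * (X (1 - (m : F)) * t') * t⁻¹ * (X (1 - (m : F)) * t')⁻¹ =
        X (((l : F) - 1) * (1 - (m : F))) := by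
      calc _ = t * X (1 - (m : F)) * t⁻¹ * (t * t' * t⁻¹ * t'⁻¹) * (X (1 - (m : F)))⁻¹ := by group
        _ = X ((l : F) * (1 - (m : F))) * X (-(1 - (m : F))) := by
          rw [hcomm.eq, mul_inv_cancel_right, mul_inv_cancel, mul_one, param_inv hX, ht1]
        _ = _ := by rw [hX]; congr 1; ring
    rw [← e]
    exact M.mul_mem (M.mul_mem (M.mul_mem ht hy) (M.inv_mem ht)) (M.inv_mem hy)
  have hfull := param_full hX ht hl ht1
    (mul_ne_zero (sub_ne_zero.2 hl1) (sub_ne_zero.2 (Ne.symm hm1))) hz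
  exact ⟨(M.mul_mem_cancel_left (hfull 1)).1 hb, hfull⟩

end Param

variable {F V : Type*} [Field F] [AddCommGroup V] [Module F V] {Q : QuadraticForm F V} {m : ℕ} (P : HFrame Q m)

/-! ### Monomial elements -/

/-- `g` sends each frame vector to a non-zero multiple of a frame vector, permuting the labels by `σ`. -/
def HFrame.Mono (g : orth Q) (σ : Ix m → Ix m) : Prop :=
  ∀ s, ∃ c : F, c ≠ 0 ∧ (g : V ≃ₗ[F] V) (P.e s) = c • P.e (σ s)

variable {P}

theorem HFrame.Mono.mul {g h : orth Q} {σ τ : Ix m → Ix m} (hg : P.Mono g σ) (hh : P.Mono h τ) :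
    P.Mono (g * h) (σ ∘ τ) := by
  intro s
  obtain ⟨c, hc, e⟩ := hh s
  obtain ⟨d, hd, e'⟩ := hg (τ s)
  exact ⟨c * d, mul_ne_zero hc hd, by rw [orth_mul_apply, e, map_smul, e', smul_smul]; rfl⟩

/-- Full root groups are moved by monomial elements in the subgroup. -/
theorem HFrame.LongIn.map {M : Subgroup (orth Q)} {g : orth Q} {σ : Ix m → Ix m} (hg : P.Mono g σ) (hM : g ∈ M)
    (hσ : ∀ s, σ s.swap = (σ s).swap) (hinj : Function.Injective σ) {a b : Ix m} (h : P.LongIn M a b) :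
    P.LongIn M (σ a) (σ b) := by
  obtain ⟨hab, h⟩ := h
  have hab' : σ b ≠ (σ a).swap := fun e => hab (hinj (by rw [e, hσ]))
  refine ⟨hab', fun c => ?_⟩
  obtain ⟨α, hα, ea⟩ := hg a
  obtain ⟨β, hβ, eb⟩ := hg b
  have e := P.conj_long hab hab' ea eb (c / (α * β))
  rw [mul_div_cancel₀ _ (mul_ne_zero hα hβ)] at e
  rw [← e]
  exact M.mul_mem (M.mul_mem hM (h _)) (M.inv_mem hM)

theorem HFrame.ShortIn.map {M : Subgroup (orth Q)} {g : orth Q} {σ : Ix m → Ix m} (hg : P.Mono g σ) (hM : g ∈ M)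
    (hσ : Function.Surjective σ) {a : Ix m} {y : V} (h : P.ShortIn M a y) :
    P.ShortIn M (σ a) ((g : V ≃ₗ[F] V) y) := by
  obtain ⟨hy, h⟩ := h
  have hy' := P.perp_image hσ hg hy
  refine ⟨hy', fun c => ?_⟩
  obtain ⟨α, hα, ea⟩ := hg a
  have e := P.conj_short hy hy' ea (one_smul F _).symm (c / α)
  rw [mul_one, mul_div_cancel₀ _ hα] at e
  rw [← e]
  exact M.mul_mem (M.mul_mem hM (h _)) (M.inv_mem hM)

variable (P)

/-- The exchange of the `a`th and `b`th pairs. -/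
def HFrame.nEl (a b : Ix m) (hb : b ≠ a) : orth Q :=
  P.long a b.swap (fun h => hb (Sum.swap_leftInverse.injective h)) 1 *
    P.long b a.swap (fun h => hb (Sum.swap_leftInverse.injective h).symm) (-1) *
    P.long a b.swap (fun h => hb (Sum.swap_leftInverse.injective h)) 1

theorem HFrame.nEl_mem (a b : Ix m) (hb : b ≠ a) : P.nEl a b hb ∈ siegelGroup Q :=
  mul_mem (mul_mem (P.long_mem _ _ _ _) (P.long_mem _ _ _ _)) (P.long_mem _ _ _ _)

theorem swap_ne (a : Ix m) : a.swap ≠ a := by rcases a with a | a <;> simp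

/-- The exchange of two pairs, as a permutation. -/
def exch (a b : Ix m) (s : Ix m) : Ix m :=
  if s = a then b else if s = b then a else if s = a.swap then b.swap else if s = b.swap then a.swap else s

theorem HFrame.nEl_mono (a b : Ix m) (hb : b ≠ a) (hb' : b ≠ a.swap) : P.Mono (P.nEl a b hb) (exch a b) := by
  have h1 : a ≠ b := Ne.symm hb
  have h2 : a ≠ b.swap := ne_swap_symm hb'
  have h3 : a.swap ≠ b.swap := fun h => h1 (Sum.swap_leftInverse.injective h)
  intro s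
  simp only [HFrame.nEl, orth_mul_apply, exch]
  have hall : s = a ∨ s = b ∨ s = a.swap ∨ s = b.swap ∨ (s ≠ a ∧ s ≠ b ∧ s ≠ a.swap ∧ s ≠ b.swap) := by tauto
  rcases hall with rfl | rfl | rfl | rfl | ⟨e1, e2, e3, e4⟩
  · refine ⟨1, one_ne_zero, ?_⟩
    rw [if_pos rfl]
    simp [P.long_e, map_add, map_sub, map_smul, Sum.swap_swap, h1, h2, h3, hb, hb', swap_ne,
      (swap_ne _).symm, h2.symm, hb'.symm, h3.symm]
  · refine ⟨-1, neg_ne_zero.2 one_ne_zero, ?_⟩
    rw [if_neg hb, if_pos rfl]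
    simp [P.long_e, map_add, map_sub, map_smul, Sum.swap_swap, h1, h2, h3, hb, hb', swap_ne,
      (swap_ne _).symm, h2.symm, hb'.symm, h3.symm]
  · refine ⟨1, one_ne_zero, ?_⟩
    rw [if_neg (swap_ne a), if_neg (Ne.symm hb'), if_pos rfl]
    simp [P.long_e, map_add, map_sub, map_smul, Sum.swap_swap, h1, h2, h3, hb, hb', swap_ne,
      (swap_ne _).symm, h2.symm, hb'.symm, h3.symm]
  · refine ⟨-1, neg_ne_zero.2 one_ne_zero, ?_⟩
    rw [if_neg h2.symm, if_neg (swap_ne b), if_neg h3.symm, if_pos rfl]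
    simp [P.long_e, map_add, map_sub, map_smul, Sum.swap_swap, h1, h2, h3, hb, hb', swap_ne,
      (swap_ne _).symm, h2.symm, hb'.symm, h3.symm]
  · refine ⟨1, one_ne_zero, ?_⟩
    rw [if_neg e1, if_neg e2, if_neg e3, if_neg e4]
    simp [P.long_e, map_add, map_sub, map_smul, Sum.swap_swap, e1, e2, e3, e4]

theorem HFrame.nEl_fix (a b : Ix m) (hb : b ≠ a) {y : V} (hy : P.Perp y) :
    (P.nEl a b hb : V ≃ₗ[F] V) y = y := by
  simp [HFrame.nEl, orth_mul_apply, P.long_fix _ _ _ _ hy]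

theorem Mono_congr {P : HFrame Q m} {g : orth Q} {σ τ : Ix m → Ix m} (h : P.Mono g σ) (e : ∀ s, σ s = τ s) :
    P.Mono g τ := fun s => by
  obtain ⟨c, hc, h'⟩ := h s
  exact ⟨c, hc, by rw [← e]; exact h'⟩

/-- The rotation of the first `k + 1` labels. -/
def rot (k : ℕ) (hk : k < m) (i : Fin m) : Fin m :=
  if i.val < k then ⟨(i.val + 1) % m, Nat.mod_lt _ (by omega)⟩ else if i.val = k then ⟨0, by omega⟩ else i

theorem exists_rot : ∀ (k : ℕ) (hk : k < m), ∃ g ∈ siegelGroup Q,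
    P.Mono g (Sum.map (rot k hk) (rot k hk)) ∧ ∀ y, P.Perp y → (g : V ≃ₗ[F] V) y = y
  | 0, hk => ⟨1, one_mem _, fun s => ⟨1, one_ne_zero, by
      rw [one_smul, orth_one_apply]
      congr 1
      rcases s with i | i <;>
      · simp only [Sum.map_inl, Sum.map_inr, Sum.inl.injEq, Sum.inr.injEq, rot, Nat.not_lt_zero, if_false]
        split_ifs with h
        · exact Fin.ext h
        · rfl⟩, fun y _ => orth_one_apply y⟩
  | k + 1, hk => by
    obtain ⟨g, hg, hmono, hfix⟩ := exists_rot k (by omega)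
    set a : Ix m := .inl ⟨k, by omega⟩
    set b : Ix m := .inl ⟨k + 1, hk⟩
    have hb : b ≠ a := by simp [a, b, Fin.ext_iff]
    refine ⟨g * P.nEl a b hb, mul_mem hg (P.nEl_mem _ _ _),
      Mono_congr (hmono.mul (P.nEl_mono a b hb (by simp [a, b]))) ?_, fun y hy => by
        rw [orth_mul_apply, P.nEl_fix _ _ _ hy, hfix y hy]⟩
    intro s
    rcases s with ⟨i, hi⟩ | ⟨i, hi⟩ <;>
    · by_cases h1 : i = k
      · subst h1
        simp [exch, rot, a, b, Fin.ext_iff, Nat.mod_eq_of_lt hk]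
      by_cases h2 : i = k + 1
      · subst h2
        simp [exch, rot, a, b, Fin.ext_iff]
      by_cases h : i < k
      · simp [exch, rot, a, b, Fin.ext_iff, h1, h2, h, show i < k + 1 by omega]
      · simp [exch, rot, a, b, Fin.ext_iff, h1, h2, h, show ¬ i < k + 1 by omega]

/-! ### The torus element -/

/-- Multipliers of the torus element. -/
def chi (a b : Fin m) (z : F) : Ix m → F :=
  Sum.elim (fun i => if i = a ∨ i = b then z else 1) (fun i => if i = a ∨ i = b then z⁻¹ else 1)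

theorem Q_pair (i : Fin m) (κ : F) : Q (P.e (.inl i) + κ • P.e (.inr i)) = κ := by
  simp [QuadraticMap.map_add ⇑Q, QuadraticMap.map_smul, P.sing, polar_smul_right, P.polar_e]

/-- The reflection exchanging the two vectors of a pair. -/
theorem refl_pair (i : Fin m) (κ : F) (hκ : Q (P.e (.inl i) + κ • P.e (.inr i)) ≠ 0) :
    (refl Q _ hκ : V ≃ₗ[F] V) (P.e (.inl i)) = -(κ • P.e (.inr i)) ∧
      (refl Q _ hκ : V ≃ₗ[F] V) (P.e (.inr i)) = -(κ⁻¹ • P.e (.inl i)) ∧
      (∀ s, s ≠ .inl i → s ≠ .inr i → (refl Q _ hκ : V ≃ₗ[F] V) (P.e s) = P.e s) ∧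
      ∀ y, P.Perp y → (refl Q _ hκ : V ≃ₗ[F] V) y = y := by
  have hκ0 : κ ≠ 0 := by simpa [Q_pair P] using hκ
  refine ⟨?_, ?_, fun s h1 h2 => ?_, fun y hy => ?_⟩
  · rw [refl_apply, Q_pair P, polar_add_right, polar_smul_right, P.polar_e, P.polar_e]
    simp [hκ0]
  · rw [refl_apply, Q_pair P, polar_add_right, polar_smul_right, P.polar_e, P.polar_e]
    simp [hκ0, smul_add, smul_smul]
  · refine refl_fix hκ ?_
    rw [polar_add_right, polar_smul_right, P.polar_e, P.polar_e, if_neg, if_neg]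
    · simp
    · intro h; exact h1 (by simpa using (congrArg Sum.swap h).symm)
    · intro h; exact h2 (by simpa using (congrArg Sum.swap h).symm)
  · refine refl_fix hκ ?_
    rw [polar_add_right, polar_smul_right, hy.symm, hy.symm, smul_zero, add_zero]

variable [Finite F] [FiniteDimensional F V]

theorem refl_mul_refl_mem (hQ : Nondeg Q) (hn : 5 ≤ Module.finrank F V) {x y : V} (hx : Q x ≠ 0) (hy : Q y ≠ 0)
    (h : Q x = Q y) : refl Q x hx * refl Q y hy ∈ siegelGroup Q := by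
  have := refl_div_mem_siegelGroup hQ hn hx hy ⟨1, by rw [h, mul_inv_cancel₀ hy, one_mul]⟩
  rwa [refl_inv] at this

theorem exists_torus (hQ : Nondeg Q) (hn : 5 ≤ Module.finrank F V) {a b : Fin m} (hab : a ≠ b) {z : F}
    (hz : z ≠ 0) : ∃ t ∈ siegelGroup Q, (∀ s, (t : V ≃ₗ[F] V) (P.e s) = chi a b z s • P.e s) ∧
      ∀ y, P.Perp y → (t : V ≃ₗ[F] V) y = y := by
  have qa : ∀ κ : F, κ ≠ 0 → ∀ i, Q (P.e (.inl i) + κ • P.e (.inr i)) ≠ 0 := fun κ h i => by rwa [Q_pair P]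
  set r1 := refl Q _ (qa 1 one_ne_zero a)
  set r2 := refl Q _ (qa z hz a)
  set r3 := refl Q _ (qa 1 one_ne_zero b)
  set r4 := refl Q _ (qa z hz b)
  have hcomm : r2 * r3 = r3 * r2 := refl_comm _ _ (by
    simp [polar_add_left, polar_add_right, polar_smul_left, polar_smul_right, P.polar_e, hab, hab.symm])
  refine ⟨r1 * r2 * r3 * r4, ?_, ?_, ?_⟩
  · rw [show r1 * r2 * r3 * r4 = (r1 * r3) * (r2 * r4) by rw [mul_assoc r1 r2, hcomm]; group]
    exact mul_mem (refl_mul_refl_mem hQ hn _ _ (by rw [Q_pair P, Q_pair P]))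
      (refl_mul_refl_mem hQ hn _ _ (by rw [Q_pair P, Q_pair P]))
  · intro s
    obtain ⟨a1, a2, a3, -⟩ := refl_pair P a 1 (qa 1 one_ne_zero a)
    obtain ⟨b1, b2, b3, -⟩ := refl_pair P a z (qa z hz a)
    obtain ⟨c1, c2, c3, -⟩ := refl_pair P b 1 (qa 1 one_ne_zero b)
    obtain ⟨d1, d2, d3, -⟩ := refl_pair P b z (qa z hz b)
    have hall : s = .inl a ∨ s = .inr a ∨ s = .inl b ∨ s = .inr b ∨
        (s ≠ .inl a ∧ s ≠ .inr a ∧ s ≠ .inl b ∧ s ≠ .inr b) := by tauto
    simp only [orth_mul_apply]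
    rcases hall with rfl | rfl | rfl | rfl | ⟨e1, e2, e3, e4⟩
    · rw [d3 _ (by simp [hab]) (by simp), c3 _ (by simp [hab]) (by simp), b1, map_neg, map_smul, a2]
      simp [chi]
    · rw [d3 _ (by simp) (by simp [hab]), c3 _ (by simp) (by simp [hab]), b2, map_neg, map_smul, a1]
      simp [chi]
    · rw [d1, map_neg, map_neg, map_neg, map_smul, map_smul, map_smul, c2, map_neg, map_neg, map_smul, map_smul,
        b3 _ (by simp [hab.symm]) (by simp), a3 _ (by simp [hab.symm]) (by simp)]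
      simp [chi]
    · rw [d2, map_neg, map_neg, map_neg, map_smul, map_smul, map_smul, c1, map_neg, map_neg, map_smul, map_smul,
        b3 _ (by simp) (by simp [hab.symm]), a3 _ (by simp) (by simp [hab.symm])]
      simp [chi]
    · rw [d3 _ e3 e4, c3 _ e3 e4, b3 _ e1 e2, a3 _ e1 e2]
      rcases s with i | i <;> simp_all [chi]
  · intro y hy
    simp only [orth_mul_apply, r1, r2, r3, r4, (refl_pair P b z (qa z hz b)).2.2.2 y hy,
      (refl_pair P b 1 (qa 1 one_ne_zero b)).2.2.2 y hy, (refl_pair P a z (qa z hz a)).2.2.2 y hy,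
      (refl_pair P a 1 (qa 1 one_ne_zero a)).2.2.2 y hy]

/-- Exchanging the two vectors of a pair and reflecting the orthogonal part. -/
theorem exists_flip (hQ : Nondeg Q) (hn : 5 ≤ Module.finrank F V) (i : Fin m) {y : V} (hy : P.Perp y)
    (hy0 : Q y ≠ 0) : ∃ g ∈ siegelGroup Q, P.Mono g (fun s => if s = .inl i ∨ s = .inr i then s.swap else s) ∧
      ∀ x, P.Perp x → (g : V ≃ₗ[F] V) x = (refl Q y hy0 : V ≃ₗ[F] V) x := by
  have hr : Q (P.e (.inl i) + Q y • P.e (.inr i)) ≠ 0 := by rwa [Q_pair P]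
  obtain ⟨a1, a2, a3, a4⟩ := refl_pair P i (Q y) hr
  have hfix : ∀ s, (refl Q y hy0 : V ≃ₗ[F] V) (P.e s) = P.e s := fun s => refl_fix hy0 (hy s)
  refine ⟨refl Q _ hr * refl Q y hy0, refl_mul_refl_mem hQ hn _ _ (Q_pair P i _), fun s => ?_, fun x hx => ?_⟩
  · rw [orth_mul_apply, hfix]
    by_cases h1 : s = .inl i
    · subst h1; exact ⟨-Q y, neg_ne_zero.2 hy0, by simp [a1]⟩
    by_cases h2 : s = .inr i
    · subst h2; exact ⟨-(Q y)⁻¹, neg_ne_zero.2 (inv_ne_zero hy0), by simp [a2]⟩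
    exact ⟨1, one_ne_zero, by simp [a3 s h1 h2, h1, h2]⟩
  · rw [orth_mul_apply]
    refine a4 _ ?_
    intro s
    have := polar_apply (refl Q y hy0) (P.e s) x
    rwa [hfix, hx s] at this

/-- Two diagonal maps fixing the orthogonal part commute. -/
theorem diag_comm {g h : orth Q} {χ χ' : Ix m → F} (hg : ∀ s, (g : V ≃ₗ[F] V) (P.e s) = χ s • P.e s)
    (hh : ∀ s, (h : V ≃ₗ[F] V) (P.e s) = χ' s • P.e s) (hgW : ∀ y, P.Perp y → (g : V ≃ₗ[F] V) y = y)
    (hhW : ∀ y, P.Perp y → (h : V ≃ₗ[F] V) y = y) : Commute g h := by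
  refine P.ext (fun s => ?_) fun y hy => ?_
  · simp only [orth_mul_apply, hg, hh, map_smul, smul_smul, mul_comm]
  · simp only [orth_mul_apply, hgW y hy, hhW y hy]

/-- The conjugate of a diagonal map by a monomial one. -/
theorem diag_conj {g n : orth Q} {χ : Ix m → F} {σ : Ix m → Ix m} (hg : ∀ s, (g : V ≃ₗ[F] V) (P.e s) = χ s • P.e s)
    (hn : P.Mono n σ) (s : Ix m) :
    ((n * g * n⁻¹ : orth Q) : V ≃ₗ[F] V) (P.e (σ s)) = χ s • P.e (σ s) := by
  obtain ⟨c, hc, e⟩ := hn s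
  have e' : ((n⁻¹ : orth Q) : V ≃ₗ[F] V) (P.e (σ s)) = c⁻¹ • P.e s := by
    rw [show P.e (σ s) = c⁻¹ • (n : V ≃ₗ[F] V) (P.e s) by rw [e, inv_smul_smul₀ hc], map_smul,
      orth_inv_apply]
  rw [orth_mul_apply, orth_mul_apply, e', map_smul, hg, map_smul, map_smul, e, smul_comm (χ s),
    inv_smul_smul₀ hc]

omit [FiniteDimensional F V] in
/-- The inverse conjugate. -/
theorem diag_conj_inv {g n : orth Q} {χ : Ix m → F} {σ : Ix m → Ix m} (hg : ∀ s, (g : V ≃ₗ[F] V) (P.e s) = χ s • P.e s)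
    (hn : P.Mono n σ) (s : Ix m) :
    ((n⁻¹ * g * n : orth Q) : V ≃ₗ[F] V) (P.e s) = χ (σ s) • P.e s := by
  obtain ⟨c, hc, e⟩ := hn s
  rw [orth_mul_apply, orth_mul_apply, e, map_smul, hg, ← smul_comm (χ (σ s)), ← e, map_smul, orth_inv_apply]

end CfsgLib.KnownSimple.TwoGen.Ortho
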