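import Cfsg.Agent.Lib.ChevOrtho.Frame

/-!
Hyperbolic frames for two-generation of orthogonal groups: root elements, their action and their conjugates.
-/

set_option autoImplicit false
set_option linter.unusedSimpArgs false

namespace CfsgLib.KnownSimple.TwoGen.Ortho

open QuadraticMap CfsgLib.ClassicalForms

variable {F V : Type*} [Field F] [AddCommGroup V] [Module F V] {Q : QuadraticForm F V} {m : ℕ}

/-- The labels of a frame. -/
abbrev Ix (m : ℕ) : Type := Fin m ⊕ Fin m

/-- `m` mutually orthogonal hyperbolic pairs `(e (inl i), e (inr i))`. -/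
structure HFrame (Q : QuadraticForm F V) (m : ℕ) where
  /-- the vectors -/
  e : Ix m → V
  sing : ∀ s, Q (e s) = 0
  pair : ∀ s, polar Q (e s) (e s.swap) = 1
  ortho : ∀ s t, t ≠ s.swap → polar Q (e s) (e t) = 0

variable (P : HFrame Q m)

theorem HFrame.polar_e (s t : Ix m) : polar Q (P.e s) (P.e t) = if t = s.swap then 1 else 0 := by
  split_ifs with h
  · rw [h, P.pair]
  · exact P.ortho s t h

/-- Orthogonal to the whole frame. -/
def HFrame.Perp (y : V) : Prop := ∀ s, polar Q (P.e s) y = 0

theorem HFrame.Perp.symm {P : HFrame Q m} {y : V} (h : P.Perp y) (s : Ix m) : polar Q y (P.e s) = 0 := by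
  rw [polar_comm]; exact h s

theorem HFrame.Perp.add {P : HFrame Q m} {y z : V} (hy : P.Perp y) (hz : P.Perp z) : P.Perp (y + z) :=
  fun s => by rw [polar_add_right, hy s, hz s, add_zero]

theorem HFrame.Perp.smul {P : HFrame Q m} {y : V} (hy : P.Perp y) (c : F) : P.Perp (c • y) :=
  fun s => by rw [polar_smul_right, hy s, smul_zero]

/-- The component orthogonal to the frame. -/
def HFrame.rest (x : V) : V := x - ∑ s : Ix m, polar Q (P.e s.swap) x • P.e s

theorem HFrame.rest_perp (x : V) : P.Perp (P.rest x) := by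
  intro t
  rw [HFrame.rest, polar_sub_right, ← QuadraticMap.polarBilin_apply_apply Q (P.e t) (∑ s : Ix m, _),
    map_sum, Finset.sum_eq_single t.swap]
  · simp [polar_smul_right, P.pair]
  · intro s _ hs
    simp [polar_smul_right, P.ortho t s hs]
  · simp

theorem HFrame.decomp (x : V) : x = (∑ s : Ix m, polar Q (P.e s.swap) x • P.e s) + P.rest x := by
  rw [HFrame.rest, add_sub_cancel]

theorem HFrame.ext {g h : orth Q} (he : ∀ s, (g : V ≃ₗ[F] V) (P.e s) = (h : V ≃ₗ[F] V) (P.e s))
    (hW : ∀ y, P.Perp y → (g : V ≃ₗ[F] V) y = (h : V ≃ₗ[F] V) y) : g = h := by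
  refine orth_ext fun x => ?_
  rw [P.decomp x, map_add, map_add, map_sum, map_sum, hW _ (P.rest_perp x)]
  congr 1
  exact Finset.sum_congr rfl fun s _ => by rw [map_smul, map_smul, he]

theorem HFrame.perp_image {g : orth Q} {σ : Ix m → Ix m} (hσ : Function.Surjective σ)
    (hg : ∀ s, ∃ c : F, c ≠ 0 ∧ (g : V ≃ₗ[F] V) (P.e s) = c • P.e (σ s)) {y : V} (hy : P.Perp y) :
    P.Perp ((g : V ≃ₗ[F] V) y) := by
  intro t
  obtain ⟨s, rfl⟩ := hσ t
  obtain ⟨c, hc, e⟩ := hg s
  have := polar_apply g (P.e s) y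
  rw [e, hy s, polar_smul_left, smul_eq_mul] at this
  exact (mul_eq_zero.1 this).resolve_left hc

/-- The long root element. -/
def HFrame.long (a b : Ix m) (hab : b ≠ a.swap) (c : F) : orth Q :=
  siegel Q (P.e a) (c • P.e b) (P.sing a) (by rw [polar_smul_right, P.ortho a b hab, smul_zero])

/-- The short root element. -/
def HFrame.short (a : Ix m) {y : V} (hy : P.Perp y) (c : F) : orth Q :=
  siegel Q (P.e a) (c • y) (P.sing a) ((hy.smul c) a)

theorem HFrame.long_add (a b : Ix m) (hab : b ≠ a.swap) (c d : F) :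
    P.long a b hab c * P.long a b hab d = P.long a b hab (c + d) := by
  rw [HFrame.long, HFrame.long, siegel_mul]
  exact siegel_congr rfl (add_smul c d _).symm _ _

theorem HFrame.short_add (a : Ix m) {y : V} (hy : P.Perp y) (c d : F) :
    P.short a hy c * P.short a hy d = P.short a hy (c + d) := by
  rw [HFrame.short, HFrame.short, siegel_mul]
  exact siegel_congr rfl (add_smul c d _).symm _ _

theorem HFrame.long_mem (a b : Ix m) (hab : b ≠ a.swap) (c : F) : P.long a b hab c ∈ siegelGroup Q :=
  siegel_mem_siegelGroup _ _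

theorem HFrame.short_mem (a : Ix m) {y : V} (hy : P.Perp y) (c : F) : P.short a hy c ∈ siegelGroup Q :=
  siegel_mem_siegelGroup _ _

theorem ne_swap_symm {a b : Ix m} (h : b ≠ a.swap) : a ≠ b.swap := fun e => h (by rw [e, Sum.swap_swap])

/-- The action of a long root element on the frame. -/
theorem HFrame.long_e (a b : Ix m) (hab : b ≠ a.swap) (c : F) (s : Ix m) :
    (P.long a b hab c : V ≃ₗ[F] V) (P.e s) = P.e s + (if s = a.swap then c • P.e b else 0)
      - (if s = b.swap then c • P.e a else 0) := by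
  rw [HFrame.long, siegel_apply, polar_smul_right, QuadraticMap.map_smul, P.sing, smul_zero, zero_mul, add_zero,
    P.polar_e, P.polar_e]
  have h1 : (a = s.swap) ↔ (s = a.swap) := ⟨fun h => by rw [h, Sum.swap_swap], fun h => by rw [h, Sum.swap_swap]⟩
  have h2 : (b = s.swap) ↔ (s = b.swap) := ⟨fun h => by rw [h, Sum.swap_swap], fun h => by rw [h, Sum.swap_swap]⟩
  simp only [h1, h2]
  split_ifs <;> simp

theorem HFrame.long_fix (a b : Ix m) (hab : b ≠ a.swap) (c : F) {y : V} (hy : P.Perp y) :
    (P.long a b hab c : V ≃ₗ[F] V) y = y := by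
  simp [HFrame.long, siegel_apply, hy.symm, polar_smul_right, QuadraticMap.map_smul, P.sing]

theorem HFrame.short_e (a : Ix m) {y : V} (hy : P.Perp y) (c : F) {s : Ix m} (hs : s ≠ a.swap) :
    (P.short a hy c : V ≃ₗ[F] V) (P.e s) = P.e s := by
  have h1 : polar Q (P.e s) (P.e a) = 0 := P.ortho s a fun h => hs (by rw [h, Sum.swap_swap])
  simp [HFrame.short, siegel_apply, h1, polar_smul_right, hy s]

theorem HFrame.short_e_swap (a : Ix m) {y : V} (hy : P.Perp y) (c : F) :
    (P.short a hy c : V ≃ₗ[F] V) (P.e a.swap) = P.e a.swap + c • y - (c ^ 2 * Q y) • P.e a := by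
  have h1 : polar Q (P.e a.swap) (P.e a) = 1 := by rw [polar_comm, P.pair]
  simp [HFrame.short, siegel_apply, h1, polar_smul_right, QuadraticMap.map_smul, hy _, pow_two]

theorem HFrame.short_perp (a : Ix m) {y z : V} (hy : P.Perp y) (hz : P.Perp z) (c : F) :
    (P.short a hy c : V ≃ₗ[F] V) z = z - (c * polar Q z y) • P.e a := by
  simp [HFrame.short, siegel_apply, hz.symm, polar_smul_right, sub_eq_add_neg]

/-- Conjugation of a long root element by a map sending frame vectors to multiples of frame vectors. -/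
theorem HFrame.conj_long {g : orth Q} {a b a' b' : Ix m} (hab : b ≠ a.swap) (hab' : b' ≠ a'.swap) {α β : F}
    (ha : (g : V ≃ₗ[F] V) (P.e a) = α • P.e a') (hb : (g : V ≃ₗ[F] V) (P.e b) = β • P.e b') (c : F) :
    g * P.long a b hab c * g⁻¹ = P.long a' b' hab' (α * β * c) := by
  rw [HFrame.long, conj_siegel, siegel_congr ha (by rw [map_smul, hb, smul_smul]),
    siegel_smul (P.sing a') (by rw [polar_smul_right, P.ortho a' b' hab', smul_zero]) α]
  exact siegel_congr rfl (by rw [smul_smul]; congr 1; ring) _ _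

/-- Conjugation of a short root element. -/
theorem HFrame.conj_short {g : orth Q} {a a' : Ix m} {y y' : V} (hy : P.Perp y) (hy' : P.Perp y') {α β : F}
    (ha : (g : V ≃ₗ[F] V) (P.e a) = α • P.e a') (hb : (g : V ≃ₗ[F] V) y = β • y') (c : F) :
    g * P.short a hy c * g⁻¹ = P.short a' hy' (α * β * c) := by
  rw [HFrame.short, conj_siegel, siegel_congr ha (by rw [map_smul, hb, smul_smul]),
    siegel_smul (P.sing a') ((hy'.smul _) a') α]
  exact siegel_congr rfl (by rw [smul_smul]; congr 1; ring) _ _

theorem HFrame.long_swap (a b : Ix m) (hab : b ≠ a.swap) (c : F) :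
    P.long b a (ne_swap_symm hab) (-c) = P.long a b hab c := by
  have hw : polar Q (P.e a) (c • P.e b) = 0 := by rw [polar_smul_right, P.ortho a b hab, smul_zero]
  have h := siegel_swap (Q := Q) (P.sing a) hw (by rw [QuadraticMap.map_smul, P.sing, smul_zero])
  rw [siegel_smul (P.sing b) (by rw [polar_neg_right, P.ortho b a (ne_swap_symm hab), neg_zero]) c] at h
  rw [HFrame.long, HFrame.long, ← h]
  exact siegel_congr rfl (by rw [smul_neg, neg_smul]) _ _

/-! ### The closure rules -/

variable {M : Subgroup (orth Q)}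

/-- A whole long root group in `M`. -/
def HFrame.LongIn (M : Subgroup (orth Q)) (a b : Ix m) : Prop :=
  ∃ hab : b ≠ a.swap, ∀ c : F, P.long a b hab c ∈ M

/-- A whole line of a short root group in `M`. -/
def HFrame.ShortIn (M : Subgroup (orth Q)) (a : Ix m) (y : V) : Prop :=
  ∃ hy : P.Perp y, ∀ c : F, P.short a hy c ∈ M

variable {P}

theorem HFrame.LongIn.swap {a b : Ix m} (h : P.LongIn M a b) : P.LongIn M b a := by
  obtain ⟨hab, h⟩ := h
  refine ⟨ne_swap_symm hab, fun c => ?_⟩
  have := h (-c)
  rwa [← P.long_swap, neg_neg] at this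

/-- `X(a,b)` and `X(op b, d)` give `X(a,d)`. -/
theorem HFrame.LongIn.chain {a b d : Ix m} (h1 : P.LongIn M a b) (h2 : P.LongIn M b.swap d) (hba : b ≠ a)
    (hdb' : d ≠ b.swap) (hd : d ≠ a.swap) : P.LongIn M a d := by
  obtain ⟨hab, h1⟩ := h1
  obtain ⟨hbd, h2⟩ := h2
  have hdb : d ≠ b := by rwa [Sum.swap_swap] at hbd
  suffices h : P.LongIn M d a from h.swap
  refine ⟨ne_swap_symm hd, fun c => ?_⟩
  set g := P.long a b hab c
  have ev : (g : V ≃ₗ[F] V) (P.e b.swap) = P.e b.swap - c • P.e a := by
    rw [P.long_e, if_neg (fun h => hba (Sum.swap_leftInverse.injective h)), if_pos rfl, add_zero]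
  have ed : (g : V ≃ₗ[F] V) (P.e d) = P.e d := by
    rw [P.long_e, if_neg hd, if_neg hdb', add_zero, sub_zero]
  have h5 : g * P.long d b.swap (ne_swap_symm hbd) (-1) * g⁻¹ ∈ M := by
    rw [P.long_swap b.swap d hbd 1]
    exact M.mul_mem (M.mul_mem (h1 c) (h2 1)) (M.inv_mem (h1 c))
  have key : g * P.long d b.swap (ne_swap_symm hbd) (-1) * g⁻¹ =
      P.long d b.swap (ne_swap_symm hbd) (-1) * P.long d a (ne_swap_symm hd) c := by
    rw [HFrame.long, conj_siegel, HFrame.long, siegel_mul]
    exact siegel_congr ed (by rw [map_smul, ev, smul_sub, neg_one_smul, neg_smul, one_smul, sub_neg_eq_add]) _ _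
  rw [key, P.long_swap b.swap d hbd 1] at h5
  exact (M.mul_mem_cancel_left (h2 1)).1 h5

/-- Two short root elements at different positions give a long root group. -/
theorem HFrame.ShortIn.long {a b : Ix m} {x y : V} (h1 : P.ShortIn M a x) (hy : P.Perp y)
    (h2 : P.short b hy 1 ∈ M) (hab : b ≠ a) (hab' : b ≠ a.swap) (hxy : polar Q x y ≠ 0) : P.LongIn M b a := by
  obtain ⟨hx, h1⟩ := h1
  refine ⟨ne_swap_symm hab', fun c => ?_⟩
  set t := -c / polar Q x y
  set g := P.short a hx t
  have eb : (g : V ≃ₗ[F] V) (P.e b) = P.e b := P.short_e a hx t hab'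
  have ey : (g : V ≃ₗ[F] V) y = y + c • P.e a := by
    rw [P.short_perp a hx hy, polar_comm Q y x, div_mul_cancel₀ _ hxy, neg_smul, sub_neg_eq_add]
  have key : g * P.short b hy 1 * g⁻¹ = P.short b hy 1 * P.long b a (ne_swap_symm hab') c := by
    rw [HFrame.short, conj_siegel, HFrame.long, siegel_mul]
    exact siegel_congr eb (by rw [map_smul, ey, one_smul, one_smul]) _ _
  have h5 : g * P.short b hy 1 * g⁻¹ ∈ M := M.mul_mem (M.mul_mem (h1 t) h2) (M.inv_mem (h1 t))
  rw [key] at h5
  exact (M.mul_mem_cancel_left h2).1 h5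

/-- Everything. -/
theorem HFrame.eq_top (hm : 2 ≤ m) (hW : ∀ y, P.Perp y → Q y = 0 → y = 0)
    (hlong : ∀ a b : Ix m, b ≠ a → b ≠ a.swap → P.LongIn M a b)
    (hshort : ∀ a y, ∀ hy : P.Perp y, P.short a hy 1 ∈ M) : siegelGroup Q ≤ M := by
  classical
  let R : CfsgLib.ChevOrtho.Frame Q (Ix m) :=
    { e := P.e, op := Sum.swap, op_op := Sum.swap_swap, sing := P.sing, pair := P.pair, orth := P.ortho
      other := fun s => by
        have h0 : 0 < m := by omega
        rcases s with i | i <;> by_cases hi : i = ⟨0, h0⟩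
        · exact ⟨.inl ⟨1, hm⟩, by simp [hi, Fin.ext_iff], by simp⟩
        · exact ⟨.inl ⟨0, h0⟩, by simpa using Ne.symm hi, by simp⟩
        · exact ⟨.inr ⟨1, hm⟩, by simp [hi, Fin.ext_iff], by simp⟩
        · exact ⟨.inr ⟨0, h0⟩, by simpa using Ne.symm hi, by simp⟩ }
  refine R.siegelGroup_le (fun s w hw => ?_) fun u hu0 hu => ?_
  · have hz : ∀ t, polar Q (P.e s) (polar Q (P.e t.swap) w • P.e t) = 0 := by
      intro t
      rw [polar_smul_right, P.polar_e]
      split_ifs with h
      · rw [h, Sum.swap_swap, show polar Q (P.e s) w = 0 from hw, zero_smul]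
      · simp
    have hmem : ∀ (T : Finset (Ix m)) (h : polar Q (P.e s) (∑ t ∈ T, polar Q (P.e t.swap) w • P.e t) = 0),
        siegel Q (P.e s) (∑ t ∈ T, polar Q (P.e t.swap) w • P.e t) (P.sing s) h ∈ M := by
      intro T
      induction T using Finset.induction_on with
      | empty =>
        intro h
        rw [siegel_congr rfl Finset.sum_empty, siegel_zero]
        exact M.one_mem
      | insert t T ht ih =>
        intro h
        have hT : polar Q (P.e s) (∑ t ∈ T, polar Q (P.e t.swap) w • P.e t) = 0 := by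
          rw [← QuadraticMap.polarBilin_apply_apply, map_sum]
          exact Finset.sum_eq_zero fun t _ => hz t
        rw [siegel_congr rfl (Finset.sum_insert ht), ← siegel_mul (P.sing s) (hz t) hT]
        refine M.mul_mem ?_ (ih hT)
        by_cases h1 : t = s
        · subst h1
          have e := siegel_add_smul (Q := Q) (u := P.e t) (w := 0) (P.sing t) (by simp) (polar Q (P.e t.swap) w)
          rw [siegel_congr rfl (zero_add _), siegel_zero] at e
          exact (e ▸ M.one_mem :)
        by_cases h2 : t = s.swap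
        · subst h2
          rw [siegel_congr rfl (show polar Q (P.e s.swap.swap) w • P.e s.swap = (0 : V) by
            rw [Sum.swap_swap, show polar Q (P.e s) w = 0 from hw, zero_smul]), siegel_zero]
          exact M.one_mem
        exact (hlong s t h1 h2).2 _
    have hr : polar Q (P.e s) (P.rest w) = 0 := P.rest_perp w s
    have hs : polar Q (P.e s) (∑ t : Ix m, polar Q (P.e t.swap) w • P.e t) = 0 := by
      rw [← QuadraticMap.polarBilin_apply_apply, map_sum]
      exact Finset.sum_eq_zero fun t _ => hz t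
    have e := hmem Finset.univ hs
    have e2 := hshort s (P.rest w) (P.rest_perp w)
    have e3 : siegel Q (P.e s) w (P.sing s) hw =
        siegel Q (P.e s) _ (P.sing s) hs * P.short s (P.rest_perp w) 1 := by
      rw [HFrame.short, siegel_mul]
      exact siegel_congr rfl (by rw [one_smul]; exact P.decomp w) _ _
    exact (e3 ▸ M.mul_mem e e2 :)
  · by_contra h
    simp only [not_exists, ne_eq, not_not] at h
    exact hu0 (hW u h hu)

end CfsgLib.KnownSimple.TwoGen.Ortho
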