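import Cfsg.Agent.Lib.KnownSimple.TwoGen.OrthoPlus
import Cfsg.Agent.Lib.ClassicalForms.Ortho.POmega

/-!
Two generators of the projective commutator subgroups of the three standard orthogonal groups.
-/

set_option autoImplicit false
set_option linter.unusedSimpArgs false

namespace CfsgLib.KnownSimple.TwoGen.Ortho

open QuadraticMap CfsgLib.ClassicalForms

variable {F : Type*} [Field F]

theorem gens_pomega {ι : Type} [Fintype ι] [DecidableEq ι] {f : (ι → F) → F} (Q : QuadraticForm F (ι → F))
    (h : ∀ v, Q v = f v) (hc : commutator (orth Q) = siegelGroup Q)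
    (H : ∃ a b : ↥(siegelGroup Q), Subgroup.closure ({a, b} : Set ↥(siegelGroup Q)) = ⊤) :
    ∃ a b : Cfsg.POmega F f, Subgroup.closure ({a, b} : Set (Cfsg.POmega F f)) = ⊤ := by
  obtain ⟨a, b, hab⟩ := H
  let φ : ↥(siegelGroup Q) →* Cfsg.POmega F f :=
    (pOmegaEquiv Q h hc).symm.toMonoidHom.comp (QuotientGroup.mk' _)
  have hφ : Function.Surjective φ := (pOmegaEquiv Q h hc).symm.surjective.comp (QuotientGroup.mk'_surjective _)
  refine ⟨φ a, φ b, ?_⟩
  rw [← Set.image_pair, ← MonoidHom.map_closure, hab, Subgroup.map_top_of_surjective φ hφ]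

theorem polar_qP (m : ℕ) (v w : Fin m ⊕ Fin m → F) :
    polar (qPlus m F) v w = ∑ i, (v (.inl i) * w (.inr i) + v (.inr i) * w (.inl i)) := by
  simp only [polar, qPlus_apply, Cfsg.quadFormPlus, Pi.add_apply, ← Finset.sum_sub_distrib]
  exact Finset.sum_congr rfl fun i _ => by ring

theorem polar_qO (m : ℕ) (v w : Unit ⊕ (Fin m ⊕ Fin m) → F) : polar (qOdd m F) v w =
    2 * (v (.inl ()) * w (.inl ())) +
      ∑ i, (v (.inr (.inl i)) * w (.inr (.inr i)) + v (.inr (.inr i)) * w (.inr (.inl i))) := by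
  simp only [polar, qOdd_apply, Cfsg.quadFormOdd, Pi.add_apply]
  have : ∀ i : Fin m, v (.inr (.inl i)) * w (.inr (.inr i)) + v (.inr (.inr i)) * w (.inr (.inl i)) =
      (v (.inr (.inl i)) + w (.inr (.inl i))) * (v (.inr (.inr i)) + w (.inr (.inr i))) -
        v (.inr (.inl i)) * v (.inr (.inr i)) - w (.inr (.inl i)) * w (.inr (.inr i)) := fun i => by ring
  simp only [this, Finset.sum_sub_distrib]
  ring

theorem polar_qM (m : ℕ) (a b : F) (v w : (Fin m ⊕ Fin m) ⊕ Fin 2 → F) : polar (qMinus m F a b) v w =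
    (∑ i, (v (.inl (.inl i)) * w (.inl (.inr i)) + v (.inl (.inr i)) * w (.inl (.inl i)))) +
      (2 * (v (.inr 0) * w (.inr 0)) + a * (v (.inr 0) * w (.inr 1) + v (.inr 1) * w (.inr 0)) +
        2 * b * (v (.inr 1) * w (.inr 1))) := by
  simp only [polar, qMinus_apply, Cfsg.quadFormMinus, Pi.add_apply]
  have : ∀ i : Fin m, v (.inl (.inl i)) * w (.inl (.inr i)) + v (.inl (.inr i)) * w (.inl (.inl i)) =
      (v (.inl (.inl i)) + w (.inl (.inl i))) * (v (.inl (.inr i)) + w (.inl (.inr i))) -
        v (.inl (.inl i)) * v (.inl (.inr i)) - w (.inl (.inl i)) * w (.inl (.inr i)) := fun i => by ring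
  simp only [this, Finset.sum_sub_distrib]
  ring

/-- The coordinate frame of the split form. -/
def framePlus (m : ℕ) : HFrame (qPlus m F) m where
  e s := Pi.single s 1
  sing s := by rcases s with i | i <;> simp [qPlus_apply, Cfsg.quadFormPlus, Pi.single_apply]
  pair s := by rcases s with i | i <;> simp [polar_qP, Pi.single_apply]
  ortho s t h := by
    rcases s with i | i <;> rcases t with j | j <;> simp [polar_qP, Pi.single_apply] at h ⊢ <;>
      exact h

/-- The coordinate frame of the odd form. -/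
def frameOdd (m : ℕ) : HFrame (qOdd m F) m where
  e s := Pi.single (.inr s) 1
  sing s := by rcases s with i | i <;> simp [qOdd_apply, Cfsg.quadFormOdd, Pi.single_apply]
  pair s := by rcases s with i | i <;> simp [polar_qO, Pi.single_apply]
  ortho s t h := by
    rcases s with i | i <;> rcases t with j | j <;> simp [polar_qO, Pi.single_apply] at h ⊢ <;>
      exact h

/-- The coordinate frame of the form of minus type. -/
def frameMinus (m : ℕ) (a b : F) : HFrame (qMinus m F a b) m where
  e s := Pi.single (.inl s) 1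
  sing s := by rcases s with i | i <;> simp [qMinus_apply, Cfsg.quadFormMinus, Pi.single_apply]
  pair s := by rcases s with i | i <;> simp [polar_qM, Pi.single_apply]
  ortho s t h := by
    rcases s with i | i <;> rcases t with j | j <;> simp [polar_qM, Pi.single_apply] at h ⊢ <;>
      exact h

theorem perp_plus {m : ℕ} {y : Fin m ⊕ Fin m → F} (hy : (framePlus m).Perp y) : y = 0 := by
  funext s
  have := hy s.swap
  rcases s with i | i <;> simpa [framePlus, polar_qP, Pi.single_apply] using this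

theorem perp_odd {m : ℕ} {y : Unit ⊕ (Fin m ⊕ Fin m) → F} (hy : (frameOdd m).Perp y) :
    y = y (.inl ()) • Pi.single (Sum.inl ()) 1 := by
  funext s
  rcases s with ⟨⟩ | s
  · simp
  · have := hy s.swap
    rcases s with i | i <;> simpa [frameOdd, polar_qO, Pi.single_apply] using this

theorem perp_minus {m : ℕ} {a b : F} {y : (Fin m ⊕ Fin m) ⊕ Fin 2 → F} (hy : (frameMinus m a b).Perp y)
    (s : Fin m ⊕ Fin m) : y (.inl s) = 0 := by
  have := hy s.swap
  rcases s with i | i <;> simpa [frameMinus, polar_qM, Pi.single_apply] using this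

theorem field_cases (F : Type*) [Field F] : (∃ x : F, x ≠ 0 ∧ x ≠ 1) ∨ ∀ x : F, x = 0 ∨ x = 1 := by
  by_cases h : ∃ x : F, x ≠ 0 ∧ x ≠ 1
  · exact Or.inl h
  · exact Or.inr fun x => by simp only [not_exists, not_and_or, not_not] at h; exact h x

variable [Finite F]

theorem gens_odd (h2 : (2 : F) ≠ 0) (m : ℕ) (hm : 2 ≤ m) : ∃ a b : Cfsg.POmega F (Cfsg.quadFormOdd m F),
    Subgroup.closure ({a, b} : Set (Cfsg.POmega F (Cfsg.quadFormOdd m F))) = ⊤ := by
  refine gens_pomega (qOdd m F) (qOdd_apply m) (commutator_qOdd h2 hm) ?_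
  refine odd_gens (frameOdd m) (nondeg_qOdd h2 m) (by rw [finrank_qOdd]; omega) hm h2
    (w := Pi.single (.inl ()) 1) (fun s => ?_) ?_ fun x hx => ⟨_, perp_odd hx⟩
  · rcases s with i | i <;> simp [frameOdd, polar_qO, Pi.single_apply]
  · simp [qOdd_apply, Cfsg.quadFormOdd, Pi.single_apply]

theorem gens_plus (m : ℕ) (hm : 4 ≤ m) : ∃ a b : Cfsg.POmega F (Cfsg.quadFormPlus m F),
    Subgroup.closure ({a, b} : Set (Cfsg.POmega F (Cfsg.quadFormPlus m F))) = ⊤ := by
  obtain ⟨L, rfl⟩ : ∃ L, m = L + 1 := ⟨m - 1, by omega⟩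
  refine gens_pomega (qPlus (L + 1) F) (qPlus_apply _) (commutator_qPlus (by omega)) ?_
  rcases field_cases F with h3 | hF
  · exact plus_gens (framePlus (L + 1)) (nondeg_qPlus _) (by rw [finrank_qPlus]; omega) (by omega) h3
      fun y hy => perp_plus hy
  · exact plus_gens_two (framePlus (L + 1)) (by omega) hF fun y hy => perp_plus hy

theorem gens_minus {a b : F} (hab : Aniso a b) (m : ℕ) (hm : 3 ≤ m) :
    ∃ g h : Cfsg.POmega F (Cfsg.quadFormMinus m F a b),
      Subgroup.closure ({g, h} : Set (Cfsg.POmega F (Cfsg.quadFormMinus m F a b))) = ⊤ := by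
  refine gens_pomega (qMinus m F a b) (qMinus_apply m a b) (commutator_qMinus hab (by omega)) ?_
  obtain ⟨c, hc⟩ : ∃ c : F, 2 * c + a ≠ 0 := by
    by_cases ha : a = 0
    · refine ⟨1, fun h => hab.disc_ne_zero ?_⟩
      subst ha
      linear_combination (-2 * b) * h
    · exact ⟨0, by simpa using ha⟩
  have hW : ∀ y, (frameMinus m a b).Perp y → qMinus m F a b y = 0 → y = 0 := by
    intro y hy h0
    have h := perp_minus hy
    rw [qMinus_apply, Cfsg.quadFormMinus] at h0
    simp only [h, zero_mul, Finset.sum_const_zero, zero_add] at h0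
    obtain ⟨e0, e1⟩ := hab _ _ h0
    funext s
    rcases s with s | i
    · exact h s
    · fin_cases i <;> assumption
  have hw : (frameMinus m a b).Perp (Pi.single (.inr 0) 1) := fun s => by
    rcases s with i | i <;> simp [frameMinus, polar_qM, Pi.single_apply]
  have hv : (frameMinus m a b).Perp (c • Pi.single (.inr 0) 1 + Pi.single (.inr 1) 1) := fun s => by
    rcases s with i | i <;> simp [frameMinus, polar_qM, Pi.single_apply]
  have hw0 : qMinus m F a b (Pi.single (.inr 0) 1) ≠ 0 := by
    simp [qMinus_apply, Cfsg.quadFormMinus, Pi.single_apply]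
  have hwv : polar (qMinus m F a b) (Pi.single (.inr 0) 1) (c • Pi.single (.inr 0) 1 + Pi.single (.inr 1) 1) ≠ 0 := by
    rw [polar_qM]; simpa [Pi.single_apply] using hc
  have hspan : ∀ x, (frameMinus m a b).Perp x → ∃ α β : F, x = α • Pi.single (.inr 0) 1 +
      β • (c • Pi.single (.inr 0) 1 + Pi.single (.inr 1) 1) := by
    intro x hx
    refine ⟨x (.inr 0) - c * x (.inr 1), x (.inr 1), ?_⟩
    funext s
    rcases s with s | i
    · simp [perp_minus hx s, Pi.single_apply]
    · fin_cases i <;> simp [Pi.single_apply] <;> ring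
  have hn : 5 ≤ Module.finrank F ((Fin m ⊕ Fin m) ⊕ Fin 2 → F) := by rw [finrank_qMinus]; omega
  rcases field_cases F with h3 | hF
  · exact minus_gens (frameMinus m a b) (nondeg_qMinus hab m) hn hm h3 hW hw hv hw0 hwv hspan
  · exact minus_gens_two (frameMinus m a b) (nondeg_qMinus hab m) hn hm hF hW hw hv hw0 hwv hspan

end CfsgLib.KnownSimple.TwoGen.Ortho
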