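import Cfsg.Agent.Lib.KnownSimple.TwoGen.OrthoShort

/-!
Two generators of the Siegel group of a split form of dimension at least eight.
-/

set_option autoImplicit false
set_option linter.unusedSimpArgs false
set_option linter.unusedSectionVars false

namespace CfsgLib.KnownSimple.TwoGen.Ortho

open QuadraticMap CfsgLib.ClassicalForms

variable {F V : Type*} [Field F] [AddCommGroup V] [Module F V] {Q : QuadraticForm F V} {L : ℕ}
  {P : HFrame Q (L + 1)} {M : Subgroup (orth Q)}

/-- The cycle on the first `L` pairs which also exchanges the last pair. -/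
def cycP (L : ℕ) : Ix (L + 1) → Ix (L + 1) :=
  Sum.elim (fun i => if h : i.val + 1 < L then .inl ⟨i.val + 1, by omega⟩ else
      if i.val + 1 = L then .inr ⟨0, by omega⟩ else .inr i)
    (fun i => if h : i.val + 1 < L then .inr ⟨i.val + 1, by omega⟩ else
      if i.val + 1 = L then .inl ⟨0, by omega⟩ else .inl i)

theorem cycP_swap (s : Ix (L + 1)) : cycP L s.swap = (cycP L s).swap := by
  rcases s with i | i <;> simp only [cycP, Sum.swap_inl, Sum.swap_inr, Sum.elim_inl, Sum.elim_inr] <;>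
    split_ifs <;> rfl

theorem cycP_inj : Function.Injective (cycP L) := by
  rintro (⟨i, hi⟩ | ⟨i, hi⟩) (⟨j, hj⟩ | ⟨j, hj⟩) h <;>
    simp only [cycP, Sum.elim_inl, Sum.elim_inr] at h <;>
    split_ifs at h <;> simp only [Sum.inl.injEq, Sum.inr.injEq, reduceCtorEq, Fin.mk.injEq, Fin.ext_iff] at h ⊢ <;>
    omega

/-- The `k`th label of the cycle. -/
def pos (L k : ℕ) : Ix (L + 1) := (cycP L)^[k] (.inl ⟨0, L.succ_pos⟩)

/-- The index of a label. -/
def idx {m : ℕ} : Ix m → ℕ := Sum.elim Fin.val Fin.val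

theorem pos_succ (k : ℕ) : pos L (k + 1) = cycP L (pos L k) := Function.iterate_succ_apply' _ _ _

theorem pos_inl : ∀ k, ∀ h : k < L, pos L k = .inl ⟨k, by omega⟩
  | 0, _ => rfl
  | k + 1, h => by rw [pos_succ, pos_inl k (by omega)]; simp [cycP, h]

theorem pos_inr : ∀ k, ∀ h : k < L, pos L (L + k) = .inr ⟨k, by omega⟩
  | 0, h => by
    rcases L with _ | L
    · omega
    · rw [add_zero, pos_succ, pos_inl L (by omega)]
      simp [cycP, Fin.ext_iff]
  | k + 1, h => by rw [← add_assoc, pos_succ, pos_inr k (by omega)]; simp [cycP, h]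

theorem pos_L (hL : 0 < L) (k : ℕ) : pos L (k + L) = (pos L k).swap := by
  induction k with
  | zero => simpa [pos] using pos_inr 0 hL
  | succ k ih => rw [show k + 1 + L = k + L + 1 by omega, pos_succ, ih, pos_succ, cycP_swap]

theorem pos_2L (hL : 0 < L) (k : ℕ) : pos L (k + L + L) = pos L k := by
  rw [pos_L hL, pos_L hL, Sum.swap_swap]

theorem pos_idx (hL : 0 < L) (k : ℕ) : idx (pos L k) < L := by
  induction k with
  | zero => simpa [pos, idx] using hL
  | succ k ih =>
    rw [pos_succ]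
    revert ih
    rcases pos L k with ⟨i, hi⟩ | ⟨i, hi⟩ <;> simp only [idx, cycP, Sum.elim_inl, Sum.elim_inr] <;> intro ih <;>
      split_ifs <;> simp <;> omega

theorem pos_ne (hL : 0 < L) {i d : ℕ} (h0 : 0 < d) (hd : d < L + L) : pos L (i + d) ≠ pos L i := by
  intro e
  rw [pos, pos, Function.iterate_add_apply] at e
  have e' : pos L d = pos L 0 := cycP_inj.iterate i e
  rw [pos_inl 0 hL] at e'
  rcases Nat.lt_or_ge d L with h | h
  · rw [pos_inl d h] at e'
    simp [Fin.ext_iff] at e'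
    omega
  · rw [show d = L + (d - L) by omega, pos_inr (d - L) (by omega)] at e'
    simp at e'

theorem exists_pos (hL : 0 < L) (s : Ix (L + 1)) (hs : idx s < L) : ∃ k < L + L, s = pos L k := by
  rcases s with ⟨i, hi⟩ | ⟨i, hi⟩ <;> simp only [idx, Sum.elim_inl, Sum.elim_inr] at hs
  · exact ⟨i, by omega, (pos_inl i hs).symm⟩
  · exact ⟨L + i, by omega, (pos_inr i hs).symm⟩

section Cover

variable {n : orth Q} (hnm : P.Mono n (cycP L)) (hnM : n ∈ M) (hL : 3 ≤ L)
  (h1 : P.LongIn M (.inl ⟨0, L.succ_pos⟩) (.inr ⟨1, by omega⟩))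

include hnm hnM hL h1

theorem orbit_long : ∀ i, P.LongIn M (pos L i) (pos L (i + 1 + L)) := by
  intro i
  induction i with
  | zero => rw [zero_add, add_comm 1 L, pos_inr 1 (by omega)]; exact h1
  | succ i ih =>
    rw [pos_succ, show i + 1 + 1 + L = i + 1 + L + 1 by omega, pos_succ]
    exact ih.map hnm hnM cycP_swap cycP_inj

theorem chain_long (i : ℕ) : ∀ j, 1 ≤ j → j < L → P.LongIn M (pos L i) (pos L (i + j + L)) := by
  intro j hj
  induction j, hj using Nat.le_induction with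
  | base => exact fun _ => orbit_long hnm hnM hL h1 i
  | succ j hj ih =>
    intro hjL
    have h := orbit_long hnm hnM hL h1 (i + j)
    have hb : (pos L (i + j + L)).swap = pos L (i + j) := by rw [pos_L (by omega), Sum.swap_swap]
    refine (ih (by omega)).chain (by rwa [hb, add_assoc i j 1] at *) ?_ ?_ ?_
    · rw [add_assoc i j L]; exact pos_ne (by omega) (by omega) (by omega)
    · rw [hb, show i + (j + 1) + L = i + j + (1 + L) by omega]
      exact pos_ne (by omega) (by omega) (by omega)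
    · rw [← pos_L (by omega), show i + (j + 1) + L = i + L + (j + 1) by omega]
      exact pos_ne (by omega) (by omega) (by omega)

theorem inner_long {a b : Ix (L + 1)} (ha : idx a < L) (hb : idx b < L) (hba : b ≠ a) (hba' : b ≠ a.swap) :
    P.LongIn M a b := by
  have hL0 : 0 < L := by omega
  obtain ⟨i, hi, rfl⟩ := exists_pos hL0 a ha
  obtain ⟨k, hk, rfl⟩ := exists_pos hL0 b hb
  rw [← pos_L hL0] at hba'
  obtain ⟨d, hd, hd', e⟩ : ∃ d, 0 < d ∧ d < L + L ∧ pos L k = pos L (i + d) := by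
    rcases lt_trichotomy i k with h | rfl | h
    · exact ⟨k - i, by omega, by omega, by rw [Nat.add_sub_cancel' h.le]⟩
    · exact absurd rfl hba
    · exact ⟨k + L + L - i, by omega, by omega, by rw [Nat.add_sub_cancel' (by omega), pos_2L hL0]⟩
  rcases lt_trichotomy d L with h | rfl | h
  · have := (chain_long hnm hnM hL h1 (i + d) (L - d) (by omega) (by omega)).swap
    rw [show i + d + (L - d) + L = i + L + L by omega, pos_2L hL0] at this
    rwa [e]
  · exact absurd e hba'
  · have := chain_long hnm hnM hL h1 i (d - L) (by omega) (by omega)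
    rwa [show i + (d - L) + L = i + d by omega, ← e] at this

theorem cover_top (hW : ∀ y, P.Perp y → y = 0) {z : Ix (L + 1)} (hz : idx z = L)
    (h2 : P.LongIn M (.inl ⟨0, L.succ_pos⟩) z) : siegelGroup Q ≤ M := by
  have hL0 : 0 < L := by omega
  have hzs : cycP L z = z.swap := by
    rcases z with ⟨i, hi⟩ | ⟨i, hi⟩ <;> simp only [idx, Sum.elim_inl, Sum.elim_inr] at hz <;>
      simp [cycP, hz]
  have hzz : ∀ k, (cycP L)^[k] z = z ∨ (cycP L)^[k] z = z.swap := by
    intro k
    induction k with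
    | zero => exact Or.inl rfl
    | succ k ih =>
      rw [Function.iterate_succ_apply']
      rcases ih with e | e <;> rw [e]
      · exact Or.inr hzs
      · exact Or.inl (by rw [cycP_swap, hzs, Sum.swap_swap])
  have horb : ∀ k, P.LongIn M (pos L k) ((cycP L)^[k] z) := by
    intro k
    induction k with
    | zero => exact h2
    | succ k ih =>
      rw [pos_succ, Function.iterate_succ_apply']
      exact ih.map hnm hnM cycP_swap cycP_inj
  have houter : ∀ k, P.LongIn M (pos L k) z ∧ P.LongIn M (pos L k) z.swap := by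
    intro k
    have hne : ∀ (j : ℕ) (d : Ix (L + 1)), idx d = L → d ≠ pos L j := fun j d hd e => by
      have := pos_idx hL0 j
      rw [← e, hd] at this
      omega
    have hidx : ∀ d : Ix (L + 1), idx d.swap = idx d := by rintro (d | d) <;> rfl
    have hd : idx ((cycP L)^[k + 1] z) = L := by
      rcases hzz (k + 1) with e | e <;> rw [e] <;> simp [hidx, hz]
    have hnext : P.LongIn M (pos L k) ((cycP L)^[k + 1] z) := by
      refine (orbit_long hnm hnM hL h1 k).chain ?_ ?_ ?_ ?_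
      · rw [← pos_L hL0, pos_2L hL0]; exact horb (k + 1)
      · rw [add_assoc]; exact pos_ne hL0 (by omega) (by omega)
      · rw [← pos_L hL0]; exact hne _ _ hd
      · rw [← pos_L hL0]; exact hne _ _ hd
    rw [Function.iterate_succ_apply'] at hnext
    rcases hzz k with e | e <;> have h' := horb k <;> rw [e] at h' hnext
    · rw [hzs] at hnext; exact ⟨h', hnext⟩
    · rw [cycP_swap, hzs, Sum.swap_swap] at hnext; exact ⟨hnext, h'⟩
  have hout : ∀ a b : Ix (L + 1), idx a < L → idx b = L → P.LongIn M a b := by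
    intro a b ha hb
    obtain ⟨k, -, rfl⟩ := exists_pos hL0 a ha
    obtain rfl | rfl : b = z ∨ b = z.swap := by
      rcases b with ⟨i, hi⟩ | ⟨i, hi⟩ <;> rcases z with ⟨j, hj⟩ | ⟨j, hj⟩ <;>
        simp only [idx, Sum.elim_inl, Sum.elim_inr] at hb hz <;> simp [hb, hz]
    · exact (houter k).1
    · exact (houter k).2
  have hle : ∀ a : Ix (L + 1), idx a < L ∨ idx a = L := by
    rintro (⟨a, ha⟩ | ⟨a, ha⟩) <;> simp only [idx, Sum.elim_inl, Sum.elim_inr] <;> omega
  refine P.eq_top (by omega) (fun y hy _ => hW y hy) (fun a b hba hba' => ?_) fun s y hy => ?_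
  · rcases hle a with ha | ha <;> rcases hle b with hb | hb
    · exact inner_long hnm hnM hL h1 ha hb hba hba'
    · exact hout a b ha hb
    · exact (hout b a hb ha).swap
    · exfalso
      rcases b with ⟨i, hi⟩ | ⟨i, hi⟩ <;> rcases a with ⟨j, hj⟩ | ⟨j, hj⟩ <;>
        simp only [idx, Sum.elim_inl, Sum.elim_inr] at hb ha <;> simp [hb, ha] at hba hba'
  · have e : P.short s hy 1 = 1 := by
      rw [HFrame.short, siegel_congr rfl (by rw [hW y hy, smul_zero] : (1 : F) • y = 0), siegel_zero]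
    rw [e]
    exact M.one_mem

end Cover

variable (P) [Finite F] [FiniteDimensional F V]

theorem exists_cycP (hL : 3 ≤ L) : ∃ g ∈ siegelGroup Q, P.Mono g (cycP L) := by
  obtain ⟨r, hr, hrm, -⟩ := exists_rot (P := P) (L - 1) (by omega)
  set a : Ix (L + 1) := .inl ⟨L - 1, by omega⟩
  set b : Ix (L + 1) := .inl ⟨L, by omega⟩
  set b' : Ix (L + 1) := .inr ⟨L, by omega⟩
  have hb : b ≠ a := by simp [a, b, Fin.ext_iff]; omega
  have hb' : b' ≠ a := by simp [a, b']
  have hbs : b ≠ a.swap := by simp [a, b]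
  have hbs' : b' ≠ a.swap := by simp [a, b', Fin.ext_iff]; omega
  refine ⟨r * (P.nEl a b' hb' * P.nEl a b hb), mul_mem hr (mul_mem (P.nEl_mem _ _ _) (P.nEl_mem _ _ _)),
    Mono_congr (hrm.mul ((P.nEl_mono a b' hb' hbs').mul (P.nEl_mono a b hb hbs))) ?_⟩
  intro s
  rcases s with ⟨i, hi⟩ | ⟨i, hi⟩ <;>
  · rcases lt_trichotomy (i + 1) L with h | h | h
    · simp [cycP, exch, rot, a, b, b', Fin.ext_iff, h, show i ≠ L - 1 by omega, show i ≠ L by omega,
        show i < L - 1 by omega, Nat.mod_eq_of_lt (show i + 1 < L + 1 by omega)]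
    · obtain rfl : i = L - 1 := by omega
      simp [cycP, exch, rot, a, b, b', Fin.ext_iff, h, show L ≠ L - 1 by omega, show L - 1 ≠ L by omega]
    · simp [cycP, exch, rot, a, b, b', Fin.ext_iff, show i = L by omega, show L ≠ L - 1 by omega,
        show L - 1 ≠ L by omega, show ¬ L < L - 1 by omega]

theorem diag_pow_card [Fintype F] {g : orth Q} {χ : Ix (L + 1) → F}
    (hg : ∀ s, (g : V ≃ₗ[F] V) (P.e s) = χ s • P.e s) (hχ : ∀ s, χ s ≠ 0)
    (hW : ∀ y, P.Perp y → y = 0) : g ^ (Fintype.card F - 1) = 1 := by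
  have hpow : ∀ k : ℕ, ∀ s, ((g ^ k : orth Q) : V ≃ₗ[F] V) (P.e s) = χ s ^ k • P.e s := by
    intro k
    induction k with
    | zero => intro s; simp [orth_one_apply]
    | succ k ih => intro s; rw [pow_succ, orth_mul_apply, hg, map_smul, ih, smul_smul, pow_succ']
  refine P.ext (fun s => ?_) fun y hy => by rw [hW y hy, map_zero, map_zero]
  rw [hpow, FiniteField.pow_card_sub_one_eq_one _ (hχ s), one_smul, orth_one_apply]

/-- Split type over more than two elements. -/
theorem plus_gens (hQ : Nondeg Q) (hn : 5 ≤ Module.finrank F V) (hL : 3 ≤ L) (h3 : ∃ x : F, x ≠ 0 ∧ x ≠ 1)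
    (hW : ∀ y, P.Perp y → y = 0) :
    ∃ a b : ↥(siegelGroup Q), Subgroup.closure ({a, b} : Set ↥(siegelGroup Q)) = ⊤ := by
  have := Fintype.ofFinite F
  obtain ⟨z, hz⟩ := exists_prim (F := F)
  obtain ⟨hz1, hz1'⟩ := prim_ne_one hz h3
  have hzi : ∀ u : Fˣ, ∃ j : ℤ, z⁻¹ ^ j = u := fun u => by
    obtain ⟨j, hj⟩ := hz u
    exact ⟨-j, by rw [inv_zpow', neg_neg, hj]⟩
  obtain ⟨t, htS, ht, -⟩ := exists_torus P hQ hn (a := ⟨1, by omega⟩) (b := ⟨L - 1, by omega⟩)
    (by simp [Fin.ext_iff]; omega) z.ne_zero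
  obtain ⟨w, hwS, hwm⟩ := exists_cycP P hL
  set e0 : Ix (L + 1) := .inl ⟨0, L.succ_pos⟩
  set s1 : Ix (L + 1) := .inr ⟨1, by omega⟩
  set fL : Ix (L + 1) := .inr ⟨L, by omega⟩
  have hrne : fL ≠ e0.swap := by simp [fL, e0, Fin.ext_iff]; omega
  have hsne : s1 ≠ e0.swap := by simp [s1, e0, Fin.ext_iff]
  have cwl : ∀ {g : orth Q} {a b : Ix (L + 1)} (hab : b ≠ a.swap) {α β γ : F},
      (g : V ≃ₗ[F] V) (P.e a) = α • P.e a → (g : V ≃ₗ[F] V) (P.e b) = β • P.e b → α * β = γ →
      ∀ c, g * P.long a b hab c * g⁻¹ = P.long a b hab (γ * c) := by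
    intro g a b hab α β γ ha hb e c
    rw [P.conj_long hab hab ha hb, e]
  set χ := chi (⟨1, by omega⟩ : Fin (L + 1)) ⟨L - 1, by omega⟩ (z : F)
  have hr : ∀ c, t * P.long e0 fL hrne c * t⁻¹ = P.long e0 fL hrne c := fun c => by
    rw [cwl hrne (ht _) (ht _) (γ := 1) ?_ c, one_mul]
    simp [χ, chi, e0, fL, Fin.ext_iff]; split_ifs <;> first | omega | simp
  have hcom : Commute t (P.long e0 fL hrne 1) := mul_inv_eq_iff_eq_mul.1 (hr 1)
  refine gens_of_le (mul_mem htS (P.long_mem e0 fL hrne 1)) (mul_mem (P.long_mem e0 s1 hsne 1) hwS) ?_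
  set M := Subgroup.closure {t * P.long e0 fL hrne 1, P.long e0 s1 hsne 1 * w}
  have ha : t * P.long e0 fL hrne 1 ∈ M := Subgroup.subset_closure (Or.inl rfl)
  have hxm : P.long e0 fL hrne (-1) ∈ M := by
    have e : (t * P.long e0 fL hrne 1) ^ (Fintype.card F - 1) = P.long e0 fL hrne (-1) := by
      rw [hcom.mul_pow, diag_pow_card P ht ?_ hW, one_mul, param_nat (P.long_add e0 fL hrne),
        Nat.cast_sub Fintype.card_pos, FiniteField.cast_card_eq_zero, zero_sub, Nat.cast_one, mul_one]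
      rintro (i | i) <;> simp [χ, chi] <;> split_ifs <;> simp
    rw [← e]; exact M.pow_mem ha _
  have htM : t ∈ M := by
    have e : t * P.long e0 fL hrne 1 * P.long e0 fL hrne (-1) = t := by
      rw [mul_assoc, P.long_add, add_neg_cancel,
        param_zero (X := fun c => P.long e0 fL hrne c) (P.long_add e0 fL hrne), mul_one]
    rw [← e]; exact M.mul_mem ha hxm
  set t' := w * t * w⁻¹
  have ht' : ∀ s, ∃ χ' : F, (t' : V ≃ₗ[F] V) (P.e s) = χ' • P.e s := fun s => by
    obtain ⟨r, rfl⟩ := (Finite.injective_iff_surjective.1 cycP_inj) s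
    exact ⟨_, diag_conj P ht hwm r⟩
  choose χ' hχ' using ht'
  have hzero : ∀ g : orth Q, ∀ y, P.Perp y → (g : V ≃ₗ[F] V) y = y := fun g y hy => by
    rw [hW y hy, map_zero]
  have src : (t' : V ≃ₗ[F] V) (P.e e0) = χ (.inr ⟨L - 1, by omega⟩) • P.e e0 ∧
      (t' : V ≃ₗ[F] V) (P.e s1) = χ (.inr ⟨0, L.succ_pos⟩) • P.e s1 := by
    have h1 := diag_conj P ht hwm (.inr ⟨L - 1, by omega⟩)
    have h2 := diag_conj P ht hwm (.inr ⟨0, L.succ_pos⟩)
    have e1 : cycP L (.inr ⟨L - 1, by omega⟩) = e0 := by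
      simp [cycP, e0, show ¬ L - 1 + 1 < L by omega, show L - 1 + 1 = L by omega]
    have e2 : cycP L (.inr ⟨0, L.succ_pos⟩) = s1 := by simp [cycP, s1, show 1 < L by omega]
    rw [e1] at h1; rw [e2] at h2
    exact ⟨h1, h2⟩
  obtain ⟨hwM, hsfull⟩ := param_core (M := M) (P.long_add e0 s1 hsne) (t := t) (n := w) htM
    (Subgroup.subset_closure (Or.inr rfl)) (l := z⁻¹) (m := z⁻¹) hzi hz1' hz1'
    (diag_comm P ht hχ' (hzero t) (hzero _))
    (cwl hsne (ht _) (ht _) (by simp [χ, chi, e0, s1, Fin.ext_iff]; omega))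
    (cwl hsne src.1 src.2 (by simp [χ, chi, Fin.ext_iff]; omega))
  have hrfull : ∀ c, P.long e0 fL hrne c ∈ M := by
    refine param_full (P.long_add e0 fL hrne) (g := w⁻¹ * t * w)
      (M.mul_mem (M.mul_mem (M.inv_mem hwM) htM) hwM) hz
      (cwl hrne (diag_conj_inv P ht hwm _) (diag_conj_inv P ht hwm _) ?_) (neg_ne_zero.2 one_ne_zero) hxm
    simp [χ, chi, cycP, e0, fL, Fin.ext_iff, show 1 < L by omega]
    omega
  exact cover_top hwm hwM hL ⟨hsne, hsfull⟩ hW (z := fL) rfl ⟨hrne, hrfull⟩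

/-- Split type over two elements. -/
theorem plus_gens_two (hL : 3 ≤ L) (hF : ∀ x : F, x = 0 ∨ x = 1) (hW : ∀ y, P.Perp y → y = 0) :
    ∃ a b : ↥(siegelGroup Q), Subgroup.closure ({a, b} : Set ↥(siegelGroup Q)) = ⊤ := by
  have h2 : (2 : F) = 0 := (hF 2).resolve_right fun h => one_ne_zero (α := F) (by linear_combination h)
  obtain ⟨w, hwS, hwm⟩ := exists_cycP P hL
  set e0 : Ix (L + 1) := .inl ⟨0, L.succ_pos⟩
  set s1 : Ix (L + 1) := .inr ⟨1, by omega⟩
  set a : Ix (L + 1) := .inl ⟨2, by omega⟩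
  set b : Ix (L + 1) := .inl ⟨L, by omega⟩
  have hsne : s1 ≠ e0.swap := by simp [s1, e0, Fin.ext_iff]
  have hb : b ≠ a := by simp [a, b, Fin.ext_iff]; omega
  have hb' : b ≠ a.swap := by simp [a, b]
  set R := P.long e0 s1 hsne (1 : F)
  have hbb : a.swap ≠ b.swap.swap := by rw [Sum.swap_swap]; exact Ne.symm hb'
  set u := P.long a b hb' 1 * P.long b.swap a.swap hbb 1
  have hue0 : (u : V ≃ₗ[F] V) (P.e e0) = P.e e0 := by
    simp [u, orth_mul_apply, P.long_e, e0, a, b, Fin.ext_iff]; omega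
  have hus1 : (u : V ≃ₗ[F] V) (P.e s1) = P.e s1 := by
    simp [u, orth_mul_apply, P.long_e, s1, a, b, Fin.ext_iff]; omega
  have hcom : Commute R u := by
    have e := P.conj_long hsne hsne (g := u) (α := (1 : F)) (β := 1) (by rw [hue0, one_smul])
      (by rw [hus1, one_smul]) 1
    simp only [one_mul] at e
    exact (mul_inv_eq_iff_eq_mul.1 e).symm
  have hzero : ∀ (a b : Ix (L + 1)) (hab : b ≠ a.swap), P.long a b hab 0 = 1 := fun a b hab =>
    param_zero (X := fun c => P.long a b hab c) (P.long_add a b hab)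
  have hRR : R * R = 1 := by rw [P.long_add, one_add_one_eq_two, h2, hzero]
  refine gens_of_le (mul_mem (P.long_mem e0 s1 hsne 1)
    (mul_mem (P.long_mem a b hb' 1) (P.long_mem b.swap a.swap hbb 1))) hwS ?_
  set M := Subgroup.closure {R * u, w}
  have hwM : w ∈ M := Subgroup.subset_closure (Or.inr rfl)
  have hRM : R ∈ M := by
    have e : (R * u) ^ 3 = R := by
      rw [hcom.mul_pow, uEl_cube P h2 a b hb hb', mul_one, pow_three, hRR, mul_one]
    rw [← e]
    exact M.pow_mem (Subgroup.subset_closure (Or.inl rfl)) _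
  have huM : u ∈ M := (M.mul_mem_cancel_left hRM).1 (Subgroup.subset_closure (Or.inl rfl))
  have hmem : ∀ {s r : Ix (L + 1)} (h : r ≠ s.swap), P.long s r h 1 ∈ M → P.LongIn M s r := by
    intro s r h h'
    refine ⟨h, fun c => ?_⟩
    rcases hF c with rfl | rfl
    · rw [hzero]; exact M.one_mem
    · exact h'
  have h1 : P.LongIn M e0 s1 := hmem hsne hRM
  have h02 : P.LongIn M e0 a.swap := by
    have := chain_long hwm hwM hL h1 0 2 (by omega) (by omega)
    rwa [show 0 + 2 + L = L + 2 by omega, pos_inr 2 (by omega), pos_inl 0 (by omega)] at this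
  obtain ⟨h02n, h02'⟩ := h02
  have hbn : b ≠ e0.swap := by simp [b, e0]
  have eua : (u : V ≃ₗ[F] V) (P.e a.swap) = P.e a.swap + P.e b := by
    simp [u, orth_mul_apply, P.long_e, a, b, Fin.ext_iff]; omega
  have key : u * P.long e0 a.swap h02n 1 * u⁻¹ = P.long e0 a.swap h02n 1 * P.long e0 b hbn 1 := by
    simp only [HFrame.long]
    rw [conj_siegel, siegel_mul]
    exact siegel_congr hue0 (by rw [map_smul, eua, one_smul, one_smul, one_smul]) _ _
  have h5 : u * P.long e0 a.swap h02n 1 * u⁻¹ ∈ M := M.mul_mem (M.mul_mem huM (h02' 1)) (M.inv_mem huM)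
  rw [key, M.mul_mem_cancel_left (h02' 1)] at h5
  exact cover_top hwm hwM hL h1 hW (z := b) rfl (hmem hbn h5)

end CfsgLib.KnownSimple.TwoGen.Ortho
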