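import Cfsg.Agent.Lib.KnownSimple.TwoGen.OrthoElems

/-!
Two generators of the Siegel group of a form whose frame has an anisotropic orthogonal part of dimension one or two.
-/

set_option autoImplicit false
set_option linter.unusedSimpArgs false
set_option linter.unusedSectionVars false

namespace CfsgLib.KnownSimple.TwoGen.Ortho

open QuadraticMap CfsgLib.ClassicalForms

variable {F V : Type*} [Field F] [AddCommGroup V] [Module F V] {Q : QuadraticForm F V} {m : ℕ} {P : HFrame Q m}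
  {M : Subgroup (orth Q)}

theorem HFrame.ShortIn.scale {a : Ix m} {y : V} {c : F} (hc : c ≠ 0) (h : P.ShortIn M a (c • y)) :
    P.ShortIn M a y := by
  obtain ⟨hy, h⟩ := h
  have hy' : P.Perp y := by simpa [smul_smul, hc] using hy.smul c⁻¹
  refine ⟨hy', fun d => ?_⟩
  have := h (d / c)
  rw [HFrame.short, siegel_congr rfl (smul_smul _ _ _)] at this
  simp only [div_mul_cancel₀ _ hc] at this
  exact this

/-- A short element with the partner of `b` and both long root groups at `a` give a short root group at `a`. -/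
theorem HFrame.LongIn.short {a b : Ix m} {y : V} (h1 : P.LongIn M a b) (h2 : P.LongIn M a b.swap) (hy : P.Perp y)
    (hs : P.short b.swap hy 1 ∈ M) (hba : b ≠ a) : P.ShortIn M a y := by
  obtain ⟨hab, h1⟩ := h1
  obtain ⟨hab', h2⟩ := h2
  refine ⟨hy, fun c => ?_⟩
  set g := P.short b.swap hy 1
  have ea : (g : V ≃ₗ[F] V) (P.e a) = P.e a :=
    P.short_e b.swap hy 1 (by rw [Sum.swap_swap]; exact Ne.symm hba)
  have eb : (g : V ≃ₗ[F] V) (P.e b) = P.e b + y - Q y • P.e b.swap := by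
    have := P.short_e_swap b.swap hy (1 : F)
    rwa [Sum.swap_swap, one_smul, one_pow, one_mul] at this
  have key : g * P.long a b hab c * g⁻¹ = P.long a b hab c * P.short a hy c * P.long a b.swap hab' (-(c * Q y)) := by
    rw [HFrame.long, conj_siegel, HFrame.short, siegel_mul, HFrame.long, siegel_mul]
    exact siegel_congr ea (by rw [map_smul, eb, smul_sub, smul_add, smul_smul, neg_smul, sub_eq_add_neg]) _ _
  have h5 : g * P.long a b hab c * g⁻¹ ∈ M := M.mul_mem (M.mul_mem hs (h1 c)) (M.inv_mem hs)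
  rw [key, M.mul_mem_cancel_right (h2 _)] at h5
  exact (M.mul_mem_cancel_left (h1 c)).1 h5

/-- Two spanning lines in every short root group and a pairing between any two positions give everything. -/
theorem eq_top_of_lines (hm : 2 ≤ m) (hW : ∀ y, P.Perp y → Q y = 0 → y = 0) {w : V}
    (h1 : ∀ s, P.ShortIn M s w)
    (h2 : ∀ s, ∃ y, P.ShortIn M s y ∧ polar Q w y ≠ 0 ∧ ∀ x, P.Perp x → ∃ α β : F, x = α • w + β • y) :
    siegelGroup Q ≤ M := by
  refine P.eq_top hm hW (fun a b hba hba' => ?_) fun a x hx => ?_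
  · obtain ⟨y, ⟨hy, hy'⟩, hne, -⟩ := h2 b
    exact ((h1 a).long hy (hy' 1) hba hba' hne).swap
  · obtain ⟨y, ⟨hy, hy'⟩, -, hspan⟩ := h2 a
    obtain ⟨hw, hw'⟩ := h1 a
    obtain ⟨α, β, rfl⟩ := hspan x hx
    have e : P.short a hx 1 = P.short a hw α * P.short a hy β := by
      rw [HFrame.short, HFrame.short, HFrame.short, siegel_mul]
      exact siegel_congr rfl (one_smul _ _) _ _
    rw [e]
    exact M.mul_mem (hw' α) (hy' β)

/-- The cycle through all labels. -/
def cyc (hm : 0 < m) : Ix m → Ix m :=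
  Sum.elim (fun i => if h : i.val + 1 < m then .inl ⟨i.val + 1, h⟩ else .inr ⟨0, hm⟩)
    (fun i => if h : i.val + 1 < m then .inr ⟨i.val + 1, h⟩ else .inl ⟨0, hm⟩)

theorem cyc_surj (hm : 0 < m) : Function.Surjective (cyc hm) := by
  rintro (⟨i, hi⟩ | ⟨i, hi⟩) <;> rcases i with _ | i
  · exact ⟨.inr ⟨m - 1, by omega⟩, by simp [cyc, show ¬ m - 1 + 1 < m by omega]⟩
  · exact ⟨.inl ⟨i, by omega⟩, by simp [cyc, hi]⟩
  · exact ⟨.inl ⟨m - 1, by omega⟩, by simp [cyc, show ¬ m - 1 + 1 < m by omega]⟩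
  · exact ⟨.inr ⟨i, by omega⟩, by simp [cyc, hi]⟩

theorem cyc_all (hm : 0 < m) {p : Ix m → Prop} (hstep : ∀ s, p s → p (cyc hm s)) {i₀ : Fin m}
    (h0 : p (.inl i₀)) : ∀ s, p s := by
  have up : ∀ (f : Fin m → Ix m), (∀ i : Fin m, ∀ h : i.val + 1 < m, p (f i) → p (f ⟨i.val + 1, h⟩)) →
      ∀ i j : Fin m, i ≤ j → p (f i) → p (f j) := by
    rintro f hf i ⟨j, hj⟩ hij hi
    induction j with
    | zero =>
      rwa [show (⟨0, hj⟩ : Fin m) = i from Fin.ext (by simp only [Fin.le_def] at hij; simpa using (Nat.le_zero.1 hij).symm)]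
    | succ j ih =>
      by_cases h : i.val = j + 1
      · rwa [show (⟨j + 1, hj⟩ : Fin m) = i from Fin.ext h.symm]
      · exact hf ⟨j, by omega⟩ hj (ih (by omega) (by simp only [Fin.le_def] at hij ⊢; omega))
  have hl : ∀ i : Fin m, ∀ h : i.val + 1 < m, p (.inl i) → p (.inl ⟨i.val + 1, h⟩) := fun i h hp => by
    have := hstep _ hp
    simpa [cyc, h] using this
  have hr : ∀ i : Fin m, ∀ h : i.val + 1 < m, p (.inr i) → p (.inr ⟨i.val + 1, h⟩) := fun i h hp => by
    have := hstep _ hp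
    simpa [cyc, h] using this
  have hlast : ¬ (m - 1) + 1 < m := by omega
  have h1 := up _ hl i₀ ⟨m - 1, by omega⟩ (by simp only [Fin.le_def]; omega) h0
  have h2 : p (.inr ⟨0, hm⟩) := by simpa [cyc, hlast] using hstep _ h1
  have h3 := up _ hr ⟨0, hm⟩
  have h4 : p (.inl ⟨0, hm⟩) := by
    simpa [cyc, hlast] using hstep _ (h3 ⟨m - 1, by omega⟩ (Nat.zero_le _) h2)
  rintro (j | j)
  · exact up _ hl ⟨0, hm⟩ j (Nat.zero_le _) h4
  · exact h3 j (Nat.zero_le _) h2

variable (P) [Finite F] [FiniteDimensional F V]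

theorem exists_cyc (hQ : Nondeg Q) (hn : 5 ≤ Module.finrank F V) (hm : 0 < m) {w : V} (hw : P.Perp w)
    (hw0 : Q w ≠ 0) : ∃ g ∈ siegelGroup Q, P.Mono g (cyc hm) ∧
      ∀ x, P.Perp x → (g : V ≃ₗ[F] V) x = (refl Q w hw0 : V ≃ₗ[F] V) x := by
  obtain ⟨r, hr, hrm, hrf⟩ := exists_rot (P := P) (m - 1) (by omega)
  obtain ⟨f, hf, hfm, hff⟩ := exists_flip P hQ hn ⟨m - 1, by omega⟩ hw hw0
  refine ⟨r * f, mul_mem hr hf, Mono_congr (hrm.mul hfm) ?_, fun x hx => ?_⟩
  · intro s
    rcases s with ⟨i, hi⟩ | ⟨i, hi⟩ <;>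
    · by_cases h : i + 1 < m
      · simp [cyc, rot, h, Fin.ext_iff, show i ≠ m - 1 by omega, show i < m - 1 by omega, Nat.mod_eq_of_lt h]
      · obtain rfl : i = m - 1 := by omega
        simp [cyc, rot, h, Fin.ext_iff]
  · rw [orth_mul_apply, hff x hx]
    refine hrf _ fun s => ?_
    have := polar_apply (refl Q w hw0) (P.e s) x
    rwa [refl_fix hw0 (hw s), hx s] at this

/-- Group elements to generators. -/
theorem gens_of_le {G : Type*} [Group G] {S : Subgroup G} {a b : G} (ha : a ∈ S) (hb : b ∈ S)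
    (h : S ≤ Subgroup.closure {a, b}) : ∃ a b : ↥S, Subgroup.closure ({a, b} : Set ↥S) = ⊤ := by
  refine ⟨⟨a, ha⟩, ⟨b, hb⟩, eq_top_iff.2 fun x _ => ?_⟩
  have hx : S.subtype x ∈ (Subgroup.closure ({⟨a, ha⟩, ⟨b, hb⟩} : Set ↥S)).map S.subtype := by
    rw [MonoidHom.map_closure, Set.image_pair]
    exact h x.2
  exact (Subgroup.mem_map_iff_mem S.subtype_injective).1 hx

theorem exists_prim : ∃ z : Fˣ, ∀ u : Fˣ, ∃ j : ℤ, z ^ j = u := by
  obtain ⟨z, hz⟩ := IsCyclic.exists_generator (α := Fˣ)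
  exact ⟨z, fun u => Subgroup.mem_zpowers_iff.1 (hz u)⟩

theorem prim_ne_one {z : Fˣ} (hz : ∀ u : Fˣ, ∃ j : ℤ, z ^ j = u) (h3 : ∃ x : F, x ≠ 0 ∧ x ≠ 1) :
    (z : F) ≠ 1 ∧ ((z⁻¹ : Fˣ) : F) ≠ 1 := by
  obtain ⟨x, hx0, hx1⟩ := h3
  have h : z ≠ 1 := by
    rintro rfl
    obtain ⟨j, hj⟩ := hz (Units.mk0 x hx0)
    rw [one_zpow] at hj
    exact hx1 (congrArg Units.val hj).symm
  exact ⟨fun e => h (Units.ext e), fun e => h (inv_eq_one.1 (Units.ext e))⟩

/-- The monomial element and a full short line out of a torus element and a root element times the monomial. -/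
theorem short_core (hm : 2 ≤ m) {z : Fˣ} (hz : ∀ u : Fˣ, ∃ j : ℤ, z ^ j = u) (h3 : ∃ x : F, x ≠ 0 ∧ x ≠ 1)
    {t n : orth Q}
    (ht : ∀ s, (t : V ≃ₗ[F] V) (P.e s) = chi ⟨0, by omega⟩ ⟨m - 1, by omega⟩ (z : F) s • P.e s)
    (htW : ∀ y, P.Perp y → (t : V ≃ₗ[F] V) y = y) (hn : P.Mono n (cyc (by omega : 0 < m)))
    {w : V} (hw : P.Perp w) (htM : t ∈ M) (hbM : P.short (.inl ⟨0, by omega⟩) hw 1 * n ∈ M) :
    n ∈ M ∧ ∀ c, P.short (.inl ⟨0, by omega⟩) hw c ∈ M := by
  obtain ⟨hz1, hz1'⟩ := prim_ne_one hz h3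
  have hm0 : 0 < m := by omega
  set t' := n * t * n⁻¹
  have hnW : ∀ y, P.Perp y → (t' : V ≃ₗ[F] V) y = y := by
    intro y hy
    obtain ⟨x, rfl⟩ := (n : V ≃ₗ[F] V).surjective y
    have hx : P.Perp x := fun s => by
      obtain ⟨c, hc, e⟩ := hn s
      have h1 := polar_apply n (P.e s) x
      rw [e, polar_smul_left, hy (cyc hm0 s), smul_zero] at h1
      exact h1.symm
    show ((n * t * n⁻¹ : orth Q) : V ≃ₗ[F] V) _ = _
    rw [orth_mul_apply, orth_mul_apply, orth_inv_apply, htW x hx]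
  have ht' : ∀ s, ∃ χ : F, (t' : V ≃ₗ[F] V) (P.e s) = χ • P.e s := fun s => by
    obtain ⟨r, rfl⟩ := cyc_surj hm0 s
    exact ⟨_, diag_conj P ht hn r⟩
  choose χ' hχ' using ht'
  have hsrc : cyc hm0 (.inr ⟨m - 1, by omega⟩) = (.inl ⟨0, hm0⟩ : Ix m) := by
    simp [cyc, show ¬ m - 1 + 1 < m by omega]
  refine param_core (P.short_add _ hw) htM hbM (l := z) (m := z⁻¹) hz hz1 hz1'
    (diag_comm P ht hχ' htW hnW) (fun c => ?_) (fun c => ?_)
  · rw [P.conj_short hw hw (a' := .inl ⟨0, hm0⟩) (α := (z : F)) (β := 1) (by rw [ht]; simp [chi]) (by rw [htW w hw, one_smul]), mul_one]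
  · rw [P.conj_short hw hw (a' := .inl ⟨0, hm0⟩) (α := ((z⁻¹ : Fˣ) : F)) (β := 1) ?_
      (by rw [hnW w hw, one_smul]), mul_one]
    rw [show (t' : V ≃ₗ[F] V) (P.e (.inl ⟨0, hm0⟩)) = (t' : V ≃ₗ[F] V) (P.e (cyc hm0 (.inr ⟨m - 1, by omega⟩))) by
      rw [hsrc], diag_conj P ht hn, hsrc]
    simp [chi]

/-- Odd dimension, odd characteristic. -/
theorem odd_gens (hQ : Nondeg Q) (hn : 5 ≤ Module.finrank F V) (hm : 2 ≤ m) (h2 : (2 : F) ≠ 0) {w : V}
    (hw : P.Perp w) (hw0 : Q w ≠ 0) (hspan : ∀ x, P.Perp x → ∃ c : F, x = c • w) :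
    ∃ a b : ↥(siegelGroup Q), Subgroup.closure ({a, b} : Set ↥(siegelGroup Q)) = ⊤ := by
  have hm0 : 0 < m := by omega
  obtain ⟨z, hz⟩ := exists_prim (F := F)
  have h3 : ∃ x : F, x ≠ 0 ∧ x ≠ 1 := ⟨-1, neg_ne_zero.2 one_ne_zero, fun h => h2 (by linear_combination -h)⟩
  obtain ⟨t, htS, ht, htW⟩ := exists_torus P hQ hn (a := ⟨0, hm0⟩) (b := ⟨m - 1, by omega⟩)
    (by simp [Fin.ext_iff]; omega) z.ne_zero
  obtain ⟨n, hnS, hnm, hnW⟩ := exists_cyc P hQ hn hm0 hw hw0
  refine gens_of_le htS (mul_mem (P.short_mem (.inl ⟨0, hm0⟩) hw 1) hnS) ?_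
  set M := Subgroup.closure {t, P.short (.inl ⟨0, hm0⟩) hw 1 * n}
  obtain ⟨hnM, hfull⟩ := short_core P hm hz h3 ht htW hnm hw (M := M)
    (Subgroup.subset_closure (Or.inl rfl)) (Subgroup.subset_closure (Or.inr rfl))
  have hrw : (n : V ≃ₗ[F] V) w = (-1 : F) • w := by rw [hnW w hw, refl_self, neg_one_smul]
  have hall : ∀ s, P.ShortIn M s w := cyc_all hm0 (fun s h =>
    HFrame.ShortIn.scale (c := -1) (neg_ne_zero.2 one_ne_zero) (hrw ▸ h.map hnm hnM (cyc_surj hm0))) ⟨hw, hfull⟩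
  refine eq_top_of_lines hm (fun y hy h => ?_) hall fun s =>
    ⟨w, hall s, by rw [polar_self_mul]; exact mul_ne_zero h2 hw0, fun x hx => ?_⟩
  · obtain ⟨c, rfl⟩ := hspan y hy
    rw [QuadraticMap.map_smul, smul_eq_mul] at h
    rw [mul_self_eq_zero.1 ((mul_eq_zero.1 h).resolve_right hw0), zero_smul]
  · obtain ⟨c, rfl⟩ := hspan x hx
    exact ⟨c, 0, by rw [zero_smul, add_zero]⟩

/-- Minus type over more than two elements. -/
theorem minus_gens (hQ : Nondeg Q) (hn : 5 ≤ Module.finrank F V) (hm : 3 ≤ m) (h3 : ∃ x : F, x ≠ 0 ∧ x ≠ 1)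
    (hW : ∀ y, P.Perp y → Q y = 0 → y = 0) {w v : V} (hw : P.Perp w) (hv : P.Perp v) (hw0 : Q w ≠ 0)
    (hwv : polar Q w v ≠ 0) (hspan : ∀ x, P.Perp x → ∃ α β : F, x = α • w + β • v) :
    ∃ a b : ↥(siegelGroup Q), Subgroup.closure ({a, b} : Set ↥(siegelGroup Q)) = ⊤ := by
  have hm0 : 0 < m := by omega
  have := Fintype.ofFinite F
  obtain ⟨z, hz⟩ := exists_prim (F := F)
  obtain ⟨t, htS, ht, htW⟩ := exists_torus P hQ hn (a := ⟨0, hm0⟩) (b := ⟨m - 1, by omega⟩)
    (by simp [Fin.ext_iff]; omega) z.ne_zero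
  obtain ⟨n, hnS, hnm, hnW⟩ := exists_cyc P hQ hn hm0 hw hw0
  set r : Ix m := .inl ⟨m - 2, by omega⟩
  have hr0 : chi ⟨0, hm0⟩ ⟨m - 1, by omega⟩ (z : F) r = 1 := by
    simp [chi, r, Fin.ext_iff]; omega
  set x := P.short r hv (1 : F)
  have hcom : Commute t x := by
    have e := P.conj_short hv hv (g := t) (a := r) (a' := r) (α := (1 : F)) (β := 1)
      (by rw [ht, hr0]) (by rw [htW v hv, one_smul]) 1
    simp only [one_mul] at e
    exact mul_inv_eq_iff_eq_mul.1 e
  refine gens_of_le (mul_mem htS (P.short_mem r hv 1)) (mul_mem (P.short_mem (.inl ⟨0, hm0⟩) hw 1) hnS) ?_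
  set M := Subgroup.closure {t * x, P.short (.inl ⟨0, hm0⟩) hw 1 * n}
  have ha : t * x ∈ M := Subgroup.subset_closure (Or.inl rfl)
  have hxm : P.short r hv (-1 : F) ∈ M := by
    have hpow : ∀ k : ℕ, ∀ s, ((t ^ k : orth Q) : V ≃ₗ[F] V) (P.e s) =
        chi ⟨0, hm0⟩ ⟨m - 1, by omega⟩ (z : F) s ^ k • P.e s := by
      intro k
      induction k with
      | zero => intro s; simp [orth_one_apply]
      | succ k ih => intro s; rw [pow_succ, orth_mul_apply, ht, map_smul, ih, smul_smul, pow_succ']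
    have hpowW : ∀ k : ℕ, ∀ y, P.Perp y → ((t ^ k : orth Q) : V ≃ₗ[F] V) y = y := by
      intro k
      induction k with
      | zero => intro y _; rw [pow_zero]; rfl
      | succ k ih => intro y hy; rw [pow_succ, orth_mul_apply, htW y hy, ih y hy]
    have ht1 : t ^ (Fintype.card F - 1) = 1 := by
      refine P.ext (fun s => ?_) fun y hy => by rw [hpowW _ y hy]; rfl
      rw [hpow, FiniteField.pow_card_sub_one_eq_one, one_smul]
      · rfl
      · rcases s with i | i <;> simp [chi] <;> split_ifs <;> simp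
    have e : (t * x) ^ (Fintype.card F - 1) = P.short r hv (-1 : F) := by
      rw [hcom.mul_pow, ht1, one_mul, param_nat (P.short_add r hv), Nat.cast_sub Fintype.card_pos,
        FiniteField.cast_card_eq_zero, zero_sub, Nat.cast_one, mul_one]
    rw [← e]; exact M.pow_mem ha _
  have htM : t ∈ M := by
    have e : t * x * P.short r hv (-1) = t := by
      rw [mul_assoc, P.short_add, add_neg_cancel, param_zero (P.short_add r hv), mul_one]
    rw [← e]; exact M.mul_mem ha hxm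
  obtain ⟨hnM, hfull⟩ := short_core P (by omega : 2 ≤ m) hz h3 ht htW hnm hw (M := M)
    htM (Subgroup.subset_closure (Or.inr rfl))
  have hrfull : ∀ c, P.short r hv c ∈ M := by
    refine param_full (P.short_add r hv) (g := n⁻¹ * t * n) (l := z) (M.mul_mem (M.mul_mem (M.inv_mem hnM) htM) hnM)
      hz (fun c => ?_) (neg_ne_zero.2 one_ne_zero) hxm
    have e1 : ((n⁻¹ * t * n : orth Q) : V ≃ₗ[F] V) (P.e r) = (z : F) • P.e r := by
      rw [diag_conj_inv P ht hnm]
      simp [chi, cyc, r, show m - 2 + 1 < m by omega, Fin.ext_iff, show m - 2 + 1 = m - 1 by omega, hm0]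
    have e2 : ((n⁻¹ * t * n : orth Q) : V ≃ₗ[F] V) v = (1 : F) • v := by
      rw [one_smul, orth_mul_apply, orth_mul_apply, htW _ (P.perp_image (cyc_surj hm0) hnm hv), orth_inv_apply]
    rw [P.conj_short hv hv e1 e2, mul_one]
  have hrw : (n : V ≃ₗ[F] V) w = (-1 : F) • w := by rw [hnW w hw, refl_self, neg_one_smul]
  have hall : ∀ s, P.ShortIn M s w := cyc_all hm0 (fun s h =>
    HFrame.ShortIn.scale (c := -1) (neg_ne_zero.2 one_ne_zero) (hrw ▸ h.map hnm hnM (cyc_surj hm0))) ⟨hw, hfull⟩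
  refine eq_top_of_lines (by omega) hW hall (cyc_all hm0 (fun s ⟨y, hy, hne, hsp⟩ => ?_)
    ⟨v, ⟨hv, hrfull⟩, hwv, hspan⟩)
  refine ⟨_, hy.map hnm hnM (cyc_surj hm0), fun h => hne ?_, fun x hx => ?_⟩
  · rw [← neg_neg w, ← neg_one_smul F w, ← hrw, polar_neg_left, polar_apply] at h
    exact neg_eq_zero.1 h
  · have hx' : P.Perp ((refl Q w hw0 : V ≃ₗ[F] V) x) := fun s' => by
      have := polar_apply (refl Q w hw0) (P.e s') x
      rwa [refl_fix hw0 (hw s'), hx s'] at this
    obtain ⟨α, β, e⟩ := hsp _ hx'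
    refine ⟨-α, β, ?_⟩
    have h1 := congrArg (n : V ≃ₗ[F] V) e
    rw [hnW _ hx', ← orth_mul_apply, refl_mul_self, orth_one_apply, map_add, map_smul, map_smul, hrw] at h1
    rw [h1, smul_smul, mul_neg_one]

/-- The cube of the product of two opposite root elements of the exchange of two pairs. -/
theorem uEl_cube (h2 : (2 : F) = 0) (a b : Ix m) (hb : b ≠ a) (hb' : b ≠ a.swap) :
    (P.long a b hb' 1 * P.long b.swap a.swap (by rw [Sum.swap_swap]; exact Ne.symm hb') 1)
      ^ 3 = 1 := by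
  have h1 : a ≠ b := Ne.symm hb
  have h2' : a ≠ b.swap := ne_swap_symm hb'
  have h3 : a.swap ≠ b.swap := fun h => h1 (Sum.swap_leftInverse.injective h)
  have hneg : ∀ v : V, -v = v := fun v => by
    rw [← neg_one_smul F, show (-1 : F) = 1 by linear_combination -h2, one_smul]
  have hvv : ∀ v : V, v + v = 0 := fun v => by rw [← two_smul F, h2, zero_smul]
  have hvv' : ∀ u v : V, u + (u + v) = v := fun u v => by rw [← add_assoc, hvv, zero_add]
  refine P.ext (fun s => ?_) fun y hy => ?_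
  · rw [pow_succ, pow_succ, pow_succ, pow_zero, one_mul]
    simp only [orth_mul_apply]
    have hall : s = a ∨ s = b ∨ s = a.swap ∨ s = b.swap ∨ (s ≠ a ∧ s ≠ b ∧ s ≠ a.swap ∧ s ≠ b.swap) := by tauto
    rcases hall with rfl | rfl | rfl | rfl | ⟨e1, e2, e3, e4⟩
    all_goals
      simp [P.long_e, map_add, map_sub, map_smul, Sum.swap_swap, h1, h2', h3, hb, hb', swap_ne,
        (swap_ne _).symm, h2'.symm, hb'.symm, h3.symm, sub_eq_add_neg, hneg, hvv, hvv', *]
    all_goals first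
      | rfl
      | (simp only [add_assoc, add_comm, add_left_comm, hvv, hvv', add_zero, zero_add]; try rfl)
  · rw [pow_succ, pow_succ, pow_succ, pow_zero, one_mul]
    simp only [orth_mul_apply, P.long_fix _ _ _ _ hy, orth_one_apply]

/-- The position of a label in the cycle. -/
def par : Ix m → ℕ := Sum.elim (fun i => i.val) (fun i => i.val + m)

/-- Minus type over two elements. -/
theorem minus_gens_two (hQ : Nondeg Q) (hn : 5 ≤ Module.finrank F V) (hm : 3 ≤ m)
    (hF : ∀ x : F, x = 0 ∨ x = 1) (hW : ∀ y, P.Perp y → Q y = 0 → y = 0) {w v : V} (hw : P.Perp w)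
    (hv : P.Perp v) (hw0 : Q w ≠ 0) (hwv : polar Q w v ≠ 0)
    (hspan : ∀ x, P.Perp x → ∃ α β : F, x = α • w + β • v) :
    ∃ a b : ↥(siegelGroup Q), Subgroup.closure ({a, b} : Set ↥(siegelGroup Q)) = ⊤ := by
  have hm0 : 0 < m := by omega
  have hone : ∀ x : F, x ≠ 0 → x = 1 := fun x hx => (hF x).resolve_left hx
  have h2 : (2 : F) = 0 := (hF 2).resolve_right fun h =>
    one_ne_zero (α := F) (by linear_combination h)
  have hneg : ∀ y : V, -y = y := fun y => by
    rw [← neg_one_smul F, show (-1 : F) = 1 by linear_combination -h2, one_smul]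
  have hwv1 : polar Q w v = 1 := hone _ hwv
  obtain ⟨n, hnS, hnm, hnW⟩ := exists_cyc P hQ hn hm0 hw hw0
  have hvw : P.Perp (v + w) := hv.add hw
  have hnw : (n : V ≃ₗ[F] V) w = w := by rw [hnW w hw, refl_self, hneg]
  have hnv : (n : V ≃ₗ[F] V) v = v + w := by
    rw [hnW v hv, refl_apply, polar_comm Q v w, hwv1, hone _ hw0, inv_one, one_mul, one_smul, sub_eq_add_neg, hneg]
  have hnvw : (n : V ≃ₗ[F] V) (v + w) = v := by
    rw [map_add, hnv, hnw, add_assoc, ← two_smul F w, h2, zero_smul, add_zero]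
  have hAB : polar Q v (v + w) = 1 := by
    rw [polar_add_right, polar_self_mul, h2, zero_mul, zero_add, polar_comm, hwv1]
  set i1 : Fin m := ⟨1, by omega⟩
  set i2 : Fin m := ⟨2, by omega⟩
  set a : Ix m := .inl i1
  set b : Ix m := .inr i2
  have hb : b ≠ a := by simp [a, b]
  have hb' : b ≠ a.swap := by simp [a, b, i1, i2, Fin.ext_iff]
  set u := P.long a b hb' 1 * P.long b.swap a.swap (by rw [Sum.swap_swap]; exact Ne.symm hb') 1
  set e0 : Ix m := .inl ⟨0, hm0⟩
  set R := P.short e0 hv (1 : F)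
  have huW : ∀ y, P.Perp y → (u : V ≃ₗ[F] V) y = y := fun y hy => by
    simp only [u, orth_mul_apply, P.long_fix _ _ _ _ hy]
  have hue0 : (u : V ≃ₗ[F] V) (P.e e0) = P.e e0 := by
    simp [u, orth_mul_apply, P.long_e, e0, a, b, i1, i2, Fin.ext_iff]
  have hcom : Commute R u := by
    have e := P.conj_short hv hv (g := u) (α := (1 : F)) (β := 1) (a := e0) (a' := e0) (by rw [hue0, one_smul])
      (by rw [huW v hv, one_smul]) 1
    simp only [one_mul] at e
    exact (mul_inv_eq_iff_eq_mul.1 e).symm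
  have hRR : R * R = 1 := by
    rw [P.short_add, one_add_one_eq_two, h2, param_zero (P.short_add e0 hv)]
  refine gens_of_le (mul_mem (P.short_mem e0 hv 1)
    (mul_mem (P.long_mem a b hb' 1) (P.long_mem b.swap a.swap (by rw [Sum.swap_swap]; exact Ne.symm hb') 1))) hnS ?_
  set M := Subgroup.closure {R * u, n}
  have hnM : n ∈ M := Subgroup.subset_closure (Or.inr rfl)
  have hRM : R ∈ M := by
    have e : (R * u) ^ 3 = R := by
      rw [hcom.mul_pow, uEl_cube P h2 a b hb hb', mul_one, pow_three, hRR, mul_one]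
    rw [← e]
    exact M.pow_mem (Subgroup.subset_closure (Or.inl rfl)) _
  have huM : u ∈ M := (M.mul_mem_cancel_left hRM).1 (Subgroup.subset_closure (Or.inl rfl))
  have hmem : ∀ {s : Ix m} {y : V} (hy : P.Perp y), P.short s hy 1 ∈ M → P.ShortIn M s y := by
    intro s y hy h
    refine ⟨hy, fun c => ?_⟩
    rcases hF c with rfl | rfl
    · rw [param_zero (P.short_add s hy)]; exact M.one_mem
    · exact h
  set line : Ix m → V := fun s => if Even (par s) then v else v + w
  have hline : ∀ s, P.ShortIn M s (line s) := by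
    refine cyc_all hm0 (fun s h => ?_) (i₀ := ⟨0, hm0⟩) (by simpa [line, par] using hmem hv hRM)
    have h' := h.map hnm hnM (cyc_surj hm0)
    have e : line (cyc hm0 s) = (n : V ≃ₗ[F] V) (line s) := by
      have hp : Even (par (cyc hm0 s)) ↔ ¬ Even (par s) := by
        rcases s with ⟨i, hi⟩ | ⟨i, hi⟩ <;> by_cases h : i + 1 < m <;>
          simp only [cyc, h, par, Sum.elim_inl, Sum.elim_inr, dif_pos, dif_neg, not_false_eq_true, Nat.even_iff, true_iff] <;>
          omega
      simp only [line, hp]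
      split_ifs
      · rw [hnv]
      · rw [hnvw]
    rw [e]; exact h'
  have hlong : ∀ s r : Ix m, par s % 2 ≠ par r % 2 → r ≠ s.swap → P.LongIn M r s := by
    intro s r hp hr
    obtain ⟨hy, hy'⟩ := hline r
    refine (hline s).long hy (hy' 1) (fun h => hp (by rw [h])) hr ?_
    simp only [line, Nat.even_iff]
    split_ifs <;> first
      | omega
      | (rw [polar_comm, hAB]; exact one_ne_zero)
      | (rw [hAB]; exact one_ne_zero)
  -- one position with both lines
  obtain ⟨s₀, hs0, hs0'⟩ : ∃ s, P.ShortIn M s v ∧ P.ShortIn M s (v + w) := by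
    rcases Nat.even_or_odd m with he | ho
    · have hp : par (Sum.inl i1 : Ix m) % 2 = 1 := rfl
      set q : Ix m := .inr ⟨0, hm0⟩
      have hq : par q % 2 = 0 := by simp [par, q, Nat.even_iff.1 he]
      obtain ⟨hy, hy'⟩ := hline q
      have hy'' : P.short (Sum.inl ⟨0, hm0⟩ : Ix m).swap hy 1 ∈ M := hy' 1
      refine ⟨.inl i1, ?_, by simpa [line, par, i1] using hline (.inl i1)⟩
      have := (hlong (.inl ⟨0, hm0⟩) (.inl i1) (by simp [par, i1]) (by simp)).short
        (hlong q (.inl i1) (by omega) (by simp [q, i1, Fin.ext_iff])) hy hy'' (by simp [i1, Fin.ext_iff])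
      simpa [line, Nat.even_iff, hq] using this
    · have hom : m % 2 = 1 := Nat.odd_iff.1 ho
      obtain ⟨hy, hy'⟩ := hline (a.swap)
      obtain ⟨hz, hz'⟩ := hline (.inr ⟨0, hm0⟩)
      set y := line a.swap with hy_def
      set f0 : Ix m := .inr ⟨0, hm0⟩
      have hyv : y = v := by
        simp [hy_def, line, par, a, i1, Nat.even_iff, show (1 + m) % 2 = 0 by omega]
      have hzv : line f0 = v + w := by simp [line, par, f0, Nat.even_iff, hom]
      -- the conjugate of the root element by `u`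
      set T := u * P.short a.swap hy 1 * u⁻¹
      have hTM : T ∈ M := M.mul_mem (M.mul_mem huM (hy' 1)) (M.inv_mem huM)
      have eua : (u : V ≃ₗ[F] V) (P.e a.swap) = P.e a.swap + P.e b := by
        simp [u, orth_mul_apply, P.long_e, a, b, i1, i2, Fin.ext_iff]
      set f12 := P.e a.swap + P.e b
      have hT : ∀ x, (T : V ≃ₗ[F] V) x = x + polar Q x f12 • y - (polar Q x y + Q y * polar Q x f12) • f12 := by
        intro x
        simp only [T, HFrame.short, conj_siegel, siegel_apply, eua, one_smul, huW y hy]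
      have ef0 : (T : V ≃ₗ[F] V) (P.e f0) = P.e f0 := by
        rw [hT, show polar Q (P.e f0) y = 0 from hy _]
        simp [f12, polar_add_right, P.polar_e, f0, a, b, i1, i2, Fin.ext_iff]
      have ez : (T : V ≃ₗ[F] V) (line f0) = line f0 + (-1 : F) • P.e a.swap + (-1 : F) • P.e b := by
        rw [hT, polar_add_right, hz.symm, hz.symm, add_zero, mul_zero, add_zero, zero_smul, add_zero, hyv, hzv,
          polar_comm, hAB, one_smul]
        simp only [f12, neg_one_smul]
        abel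
      have key : T * P.short f0 hz 1 * T⁻¹ = P.short f0 hz 1 * P.long f0 a.swap (by simp [f0, a, i1, Fin.ext_iff]) (-1) *
          P.long f0 b (by simp [f0, b, i2, Fin.ext_iff]) (-1) := by
        simp only [HFrame.short, HFrame.long]
        rw [conj_siegel, siegel_mul, siegel_mul]
        exact siegel_congr ef0 (by rw [map_smul, ez, one_smul, one_smul]) _ _
      have h5 : T * P.short f0 hz 1 * T⁻¹ ∈ M := M.mul_mem (M.mul_mem hTM (hz' 1)) (M.inv_mem hTM)
      obtain ⟨h01, h01'⟩ := hlong a.swap f0 (by simp [par, f0, a, i1]; omega) (by simp [f0, a, i1])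
      rw [key, M.mul_mem_cancel_left (M.mul_mem (hz' 1) (h01' _))] at h5
      have hfb : b ≠ f0.swap := by simp [f0, b, i2, Fin.ext_iff]
      have hL : P.LongIn M f0 b := ⟨hfb, fun c => by
        rcases hF c with rfl | rfl
        · have h0 : P.long f0 b hfb 0 = 1 := param_zero (X := fun c => P.long f0 b hfb c) (P.long_add f0 b hfb)
          rw [h0]; exact M.one_mem
        · convert h5 using 2; linear_combination h2⟩
      obtain ⟨hy2, hy2'⟩ := hline (.inl ⟨0, hm0⟩)
      have hy2'' : P.short f0.swap hy2 1 ∈ M := hy2' 1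
      refine ⟨b, ?_, ?_⟩
      · have := hL.swap.short (hlong (.inl ⟨0, hm0⟩) b (by simp [par, b, i2]; omega) (by simp [b, i2, Fin.ext_iff]))
          hy2 hy2'' (by simp [f0, b, i2, Fin.ext_iff])
        simpa [line, par] using this
      · have := hline b
        simpa [line, par, b, i2, Nat.even_iff, show (2 + m) % 2 = 1 by omega] using this
  have hboth : ∀ s, P.ShortIn M s v ∧ P.ShortIn M s (v + w) := by
    have hstep : ∀ s, (P.ShortIn M s v ∧ P.ShortIn M s (v + w)) →
        P.ShortIn M (cyc hm0 s) v ∧ P.ShortIn M (cyc hm0 s) (v + w) := fun s h =>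
      ⟨hnvw ▸ h.2.map hnm hnM (cyc_surj hm0), hnv ▸ h.1.map hnm hnM (cyc_surj hm0)⟩
    rcases s₀ with i | i
    · exact cyc_all hm0 hstep (i₀ := i) ⟨hs0, hs0'⟩
    · -- move to the first half
      have up : ∀ k, ∀ i : Fin m, i.val + k + 1 = m → P.ShortIn M (.inr i) v ∧ P.ShortIn M (.inr i) (v + w) →
          P.ShortIn M (.inl ⟨0, hm0⟩) v ∧ P.ShortIn M (.inl ⟨0, hm0⟩) (v + w) := by
        intro k
        induction k with
        | zero => intro i hi h; simpa [cyc, show ¬ i.val + 1 < m by omega] using hstep _ h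
        | succ k ih =>
          intro i hi h
          exact ih ⟨i.val + 1, by omega⟩ (by simp; omega) (by simpa [cyc, show i.val + 1 < m by omega] using hstep _ h)
      exact cyc_all hm0 hstep (up (m - i.val - 1) i (by omega) ⟨hs0, hs0'⟩)
  refine eq_top_of_lines (by omega) hW (fun s => ?_) fun s => ⟨v, (hboth s).1, hwv, hspan⟩
  obtain ⟨⟨h1, h1'⟩, ⟨h2', h2''⟩⟩ := hboth s
  refine hmem hw ?_
  have e : P.short s hw 1 = P.short s h1 1 * P.short s h2' 1 := by
    rw [HFrame.short, HFrame.short, HFrame.short, siegel_mul]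
    refine siegel_congr rfl ?_ _ _
    rw [one_smul, one_smul, one_smul, ← add_assoc, ← two_smul F v, h2, zero_smul, zero_add]
  rw [e]; exact M.mul_mem (h1' 1) (h2'' 1)

end CfsgLib.KnownSimple.TwoGen.Ortho
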